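import Cfsg.Agent.H86.FusAlperin
import Cfsg.Agent.H86.FusSat
import Cfsg.Agent.H88.PPower
import Cfsg.Agent.H87.Class2
import Cfsg.Agent.H87.CentricExt

set_option autoImplicit false

namespace Cfsg.Agent.H87

open Cfsg Cfsg.FusionSystem Cfsg.Agent.H86

variable {Ω : Type*} [Group Ω] {S : Subgroup Ω}

/-- A power `β ^ j` which is a `p`-element, with `j ≡ 1` modulo a given power of `p`. -/
theorem exists_pow_pElement {M : Type*} [Group M] [Finite M] (β : M) (p : ℕ) [hp : Fact p.Prime]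
    (k : ℕ) : ∃ j a : ℕ, (β ^ j) ^ (p ^ a) = 1 ∧ j ≡ 1 [MOD p ^ k] := by
  have ho : orderOf β ≠ 0 := (orderOf_pos β).ne'
  set a := (orderOf β).factorization p with ha
  set m := orderOf β / p ^ a with hm
  have hmul : p ^ a * m = orderOf β := Nat.ordProj_mul_ordCompl_eq_self (orderOf β) p
  have hcop : Nat.Coprime p m := Nat.coprime_ordCompl hp.out ho
  have hcop' : Nat.Coprime m (p ^ k) := (Nat.Coprime.pow_left k hcop).symm
  have hφ : 0 < Nat.totient (p ^ k) := Nat.totient_pos.mpr (pow_pos hp.out.pos k)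
  refine ⟨m ^ Nat.totient (p ^ k), a, ?_, Nat.ModEq.pow_totient hcop'⟩
  rw [← pow_mul]
  apply orderOf_dvd_iff_pow_eq_one.mp
  rw [← hmul, mul_comm]
  exact Nat.mul_dvd_mul (dvd_pow_self m hφ.ne') dvd_rfl

theorem pow_eq_self_of_modEq {M : Type*} [Group M] {α : M} {n j : ℕ} (hα : α ^ n = 1)
    (hj : j ≡ 1 [MOD n]) : α ^ j = α := by
  have h1 : orderOf α ∣ n := orderOf_dvd_of_pow_eq_one hα
  have h2 : j ≡ 1 [MOD orderOf α] := hj.of_dvd h1
  have h3 := pow_eq_pow_iff_modEq.mpr h2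
  rw [h3, pow_one]

theorem isPGroup_zpowers_of_pow_eq_one {M : Type*} [Group M] {p a : ℕ} {β : M}
    (h : β ^ (p ^ a) = 1) : IsPGroup p (Subgroup.zpowers β) := by
  rintro ⟨γ, hγ⟩
  refine ⟨a, ?_⟩
  obtain ⟨j, rfl⟩ := Subgroup.mem_zpowers_iff.mp hγ
  apply Subtype.ext
  show (β ^ j) ^ (p ^ a) = 1
  rw [← zpow_natCast, ← zpow_mul, mul_comm, zpow_mul, zpow_natCast, h, one_zpow]

end Cfsg.Agent.H87
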