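import Cfsg.Agent.H19.JyGoodA
import Cfsg.Agent.Helper55.J48
import Cfsg.Agent.H52.JxDefs

/-!
# S2953 (KILL2 plan of helper52, piece X2 "PF")

For a configuration `Base S M T K L` and `P = K ⊔ T`: `O₂(P) ≤ T`, `O₂(P) ≠ 1` and `P` normalizes
`O₂(P)`.
-/

set_option autoImplicit false

namespace Cfsg.Agent.H87.Jx

universe u

/-- X2 (PF), statement written out. -/
theorem pf {G : Type u} [Group G] [Finite G] (S : Sylow 2 G) (M T K L : Subgroup G)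
    (hB : Cfsg.Agent.H64.Jz.Base S M T K L) :
    Cfsg.pCoreOf 2 (K ⊔ T) ≤ T ∧ Cfsg.pCoreOf 2 (K ⊔ T) ≠ ⊥ ∧
      K ⊔ T ≤ Subgroup.normalizer (Cfsg.pCoreOf 2 (K ⊔ T) : Set G) := by
  obtain ⟨hcent, hsyl, -⟩ := Cfsg.Agent.H19.Jy.goodA S M T K L hB
  refine ⟨Cfsg.Agent.Helper55.J48.pCoreOf_le_of_sylowIn hsyl, ?_,
    Cfsg.Agent.Helper55.J48.le_normalizer_pCoreOf (K ⊔ T)⟩
  intro hbot
  obtain ⟨Q, -, hQ1, -⟩ := hB.2.2.1
  apply hQ1
  rw [eq_bot_iff]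
  intro x _
  have hx : x ∈ Subgroup.centralizer (Cfsg.pCoreOf 2 (K ⊔ T) : Set G) := by
    rw [hbot]
    intro y hy
    have hy1 : y = 1 := by simpa using hy
    rw [hy1, mul_one, one_mul]
  have hx2 := hcent hx
  rw [hbot] at hx2
  exact hx2

/-- X2 (PF), exact Prop of `H52/JxDefs.lean`. -/
theorem stPF : Cfsg.Agent.H52.Jx.StPF.{u} := by
  intro G _ _ S M T K L hB
  exact pf S M T K L hB

example : Cfsg.Agent.H52.Jx.StPF.{u} := stPF

end Cfsg.Agent.H87.Jx
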