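import Mathlib
import Cfsg.Agent.H14.CqDefs

/-!
# CQ-AVG (helper87, for helper14's COUNT sub-tree of S5987 / S5973)

The averaging identity for a totally singular subspace `U` of a quadratic space with
nondegenerate polar form:
`#{w ∈ U^⊥ : Q w = 0} + q^(D-1) = #{w : Q w = 0} + q^(D-1-dim U)`.
-/

set_option autoImplicit false

namespace Cfsg.Agent.H87.Cq

open Cfsg.Agent.H14.Cq Module

universe u v

/-- Fibres of a nonzero functional on a finite vector space. -/
theorem card_fibre_functional {F : Type u} [Field F] [Fintype F] {U : Type v} [AddCommGroup U]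
    [Module F U] [FiniteDimensional F U] [Fintype U] [DecidableEq F]
    (f : U →ₗ[F] F) (hf : f ≠ 0) (c : F) :
    (Finset.univ.filter (fun u : U => f u = c)).card =
      Fintype.card F ^ (Module.finrank F U - 1) := by
  classical
  have hsurj : Function.Surjective f := by
    have := Module.Dual.range_eq_top_of_ne_zero (f := f) hf
    exact LinearMap.range_eq_top.mp this
  obtain ⟨u0, hu0⟩ := hsurj c
  have hk : Module.finrank F (LinearMap.ker f) = Module.finrank F U - 1 := by
    have := Module.Dual.finrank_ker_add_one_of_ne_zero (f := f) hf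
    omega
  haveI : Fintype (LinearMap.ker f) := Fintype.ofFinite _
  rw [← hk, ← Module.card_eq_pow_finrank (K := F) (V := LinearMap.ker f)]
  rw [← Fintype.card_coe]
  apply Fintype.card_congr
  refine ⟨fun u => ⟨u.1 - u0, ?_⟩, fun k => ⟨k.1 + u0, ?_⟩, ?_, ?_⟩
  · have := (Finset.mem_filter.mp u.2).2
    rw [LinearMap.mem_ker, map_sub, this, hu0, sub_self]
  · have := LinearMap.mem_ker.mp k.2
    rw [Finset.mem_filter]
    refine ⟨Finset.mem_univ _, ?_⟩
    rw [map_add, this, hu0, zero_add]
  · intro u; apply Subtype.ext; simp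
  · intro k; apply Subtype.ext; simp

theorem avg (hP : StPerp.{u, v}) : StAvg.{u, v} := by
  intro F _ _ V _ _ _ Q hnd U hU
  classical
  haveI : Finite V := Module.finite_of_finite F
  haveI : Fintype V := Fintype.ofFinite V
  haveI : Fintype U := Fintype.ofFinite U
  set q := Fintype.card F with hq
  set D := Module.finrank F V with hD
  set j := Module.finrank F U with hj
  have hq1 : 1 < q := Fintype.one_lt_card
  have hUcard : Fintype.card U = q ^ j := Module.card_eq_pow_finrank (K := F)
  have hVcard : Fintype.card V = q ^ D := Module.card_eq_pow_finrank (K := F)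
  -- the polar form vanishes on `U × U`
  have hUU : ∀ u ∈ U, ∀ u' ∈ U, QuadraticMap.polar ⇑Q u u' = 0 := by
    intro u hu u' hu'
    simp [QuadraticMap.polar, hU u hu, hU u' hu', hU _ (U.add_mem hu hu')]
  set Z := Nat.card {w : V // Q w = 0} with hZ
  set Z' := Nat.card {w : V // Q w = 0 ∧ ∀ u ∈ U, QuadraticMap.polar ⇑Q u w = 0} with hZ'
  have hPval : Nat.card {w : V // ∀ u ∈ U, QuadraticMap.polar ⇑Q u w = 0} = q ^ (D - j) :=
    hP F V Q hnd U
  -- `U ⊆ U^⊥` gives `j ≤ D - j`
  have hjle : j ≤ D - j := by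
    have h1 : Nat.card U ≤ Nat.card {w : V // ∀ u ∈ U, QuadraticMap.polar ⇑Q u w = 0} := by
      apply Nat.card_le_card_of_injective
        (fun u : U => (⟨u.1, fun u' hu' => hUU u' hu' u.1 u.2⟩ :
          {w : V // ∀ u ∈ U, QuadraticMap.polar ⇑Q u w = 0}))
      intro a b h
      exact Subtype.ext (by simpa using congrArg Subtype.val h)
    rw [Nat.card_eq_fintype_card, hUcard, hPval] at h1
    exact (Nat.pow_le_pow_iff_right hq1).mp h1
  -- the double count
  have key : ∑ w : V, ∑ u : U, (if Q (w + u) = 0 then 1 else 0 : ℕ) =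
      ∑ u : U, ∑ w : V, (if Q (w + u) = 0 then 1 else 0 : ℕ) := Finset.sum_comm
  have hZf : Z = (Finset.univ.filter (fun w : V => Q w = 0)).card := by
    rw [hZ, Nat.card_eq_fintype_card, Fintype.card_subtype]
  have hZ'f : Z' = (Finset.univ.filter
      (fun w : V => Q w = 0 ∧ ∀ u ∈ U, QuadraticMap.polar ⇑Q u w = 0)).card := by
    rw [hZ', Nat.card_eq_fintype_card, Fintype.card_subtype]
  have hPf : (Finset.univ.filter
      (fun w : V => ∀ u ∈ U, QuadraticMap.polar ⇑Q u w = 0)).card = q ^ (D - j) := by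
    rw [← hPval, Nat.card_eq_fintype_card, Fintype.card_subtype]
  have hR : ∀ u : U, ∑ w : V, (if Q (w + u) = 0 then 1 else 0 : ℕ) = Z := by
    intro u
    rw [Fintype.sum_equiv (Equiv.addRight (u : V)) (fun w => if Q (w + u) = 0 then 1 else 0)
      (fun w => if Q w = 0 then 1 else 0) (fun w => rfl)]
    rw [hZf, Finset.card_filter]
  have hL : ∀ w : V, ∑ u : U, (if Q (w + u) = 0 then 1 else 0 : ℕ) =
      (if (Q w = 0 ∧ ∀ u ∈ U, QuadraticMap.polar ⇑Q u w = 0) then q ^ j else 0) +
      (if (¬ ∀ u ∈ U, QuadraticMap.polar ⇑Q u w = 0) then q ^ (j - 1) else 0) := by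
    intro w
    have hQ : ∀ u : U, Q (w + u) = Q w + QuadraticMap.polar ⇑Q w u := by
      intro u
      have := hU u.1 u.2
      simp [QuadraticMap.polar, this]
    by_cases h1 : ∀ u ∈ U, QuadraticMap.polar ⇑Q u w = 0
    · have hpol : ∀ u : U, QuadraticMap.polar ⇑Q w u = 0 := fun u => by
        rw [QuadraticMap.polar_comm]; exact h1 u.1 u.2
      rw [if_neg (not_not.mpr h1), add_zero]
      by_cases h2 : Q w = 0
      · rw [if_pos ⟨h2, h1⟩]
        rw [Finset.sum_congr rfl (fun u _ => by rw [hQ u, hpol u, add_zero, if_pos h2])]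
        simp [hUcard]
      · rw [if_neg (fun h => h2 h.1)]
        rw [Finset.sum_congr rfl (fun u _ => by rw [hQ u, hpol u, add_zero, if_neg h2])]
        simp
    · rw [if_pos h1, if_neg (fun h => h1 h.2), zero_add]
      set f : U →ₗ[F] F := (QuadraticMap.polarBilin Q w).domRestrict U with hf
      have hfa : ∀ u : U, f u = QuadraticMap.polar ⇑Q w u := fun u => by
        rw [hf, LinearMap.domRestrict_apply, QuadraticMap.polarBilin_apply_apply]
      have hf0 : f ≠ 0 := by
        intro h0
        apply h1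
        intro u hu
        have := LinearMap.congr_fun h0 ⟨u, hu⟩
        rw [hfa] at this
        rw [QuadraticMap.polar_comm]
        simpa using this
      have := card_fibre_functional f hf0 (-(Q w))
      rw [← hj, ← hq, Finset.card_filter] at this
      rw [← this]
      apply Finset.sum_congr rfl
      intro u _
      rw [hQ u, hfa u]
      have hiff : (Q w + QuadraticMap.polar ⇑Q w u = 0) ↔ (QuadraticMap.polar ⇑Q w u = -(Q w)) := by
        constructor
        · intro h; exact eq_neg_of_add_eq_zero_right h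
        · intro h; rw [h]; exact add_neg_cancel _
      simp only [hiff]
  have hsum : q ^ j * Z = q ^ j * Z' + q ^ (j - 1) * (q ^ D - q ^ (D - j)) := by
    have e1 : ∑ u : U, ∑ w : V, (if Q (w + u) = 0 then 1 else 0 : ℕ) = q ^ j * Z := by
      rw [Finset.sum_congr rfl (fun u _ => hR u)]
      simp [hUcard]
    have e2 : ∑ w : V, ∑ u : U, (if Q (w + u) = 0 then 1 else 0 : ℕ) =
        q ^ j * Z' + q ^ (j - 1) * (q ^ D - q ^ (D - j)) := by
      rw [Finset.sum_congr rfl (fun w _ => hL w), Finset.sum_add_distrib]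
      congr 1
      · rw [← Finset.sum_filter, Finset.sum_const, hZ'f, smul_eq_mul, mul_comm]
      · rw [← Finset.sum_filter, Finset.sum_const, smul_eq_mul, mul_comm]
        congr 1
        have := Finset.card_filter_add_card_filter_not (s := (Finset.univ : Finset V))
          (fun w : V => ∀ u ∈ U, QuadraticMap.polar ⇑Q u w = 0)
        rw [hPf, Finset.card_univ, hVcard] at this
        have h3 : (Finset.univ.filter
            (fun w : V => ¬ ∀ u ∈ U, QuadraticMap.polar ⇑Q u w = 0)).card = q ^ D - q ^ (D - j) := by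
          omega
        rw [← h3]
    rw [← e1, ← key, e2]
  -- arithmetic
  rcases Nat.eq_zero_or_pos j with hj0 | hjpos
  · rw [hj0] at hsum ⊢
    simp only [pow_zero, one_mul, Nat.sub_zero, Nat.sub_self, mul_zero, add_zero, zero_tsub] at hsum ⊢
    rw [hsum]
  · obtain ⟨j', hj'⟩ : ∃ j', j = j' + 1 := ⟨j - 1, by omega⟩
    obtain ⟨e, he⟩ : ∃ e, D = j + 1 + e := ⟨D - 1 - j, by omega⟩
    have hqpos : 0 < q := by omega
    have e1 : D - j = e + 1 := by omega
    have e2 : D - 1 = j + e := by omega
    have e3 : D - 1 - j = e := by omega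
    have e4 : j - 1 = j' := by omega
    rw [e1, e4] at hsum
    rw [e3, e2]
    have hle : q ^ (e + 1) ≤ q ^ D := Nat.pow_le_pow_right hqpos (by omega)
    have h5 : q ^ j' * (q * (Z + q ^ e)) = q ^ j' * (q * (Z' + q ^ (j + e))) := by
      have hD' : q ^ D = q * q ^ (j + e) := by rw [he, ← pow_succ']; congr 1; omega
      have hj'' : q ^ j = q ^ j' * q := by rw [hj', pow_succ]
      have he' : q ^ (e + 1) = q * q ^ e := by rw [pow_succ']
      rw [hj''] at hsum
      have h6 : q ^ j' * q * Z + q ^ j' * q ^ (e + 1) = q ^ j' * q * Z' + q ^ j' * q ^ D := by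
        rw [hsum, Nat.mul_sub]
        have : q ^ j' * q ^ (e + 1) ≤ q ^ j' * q ^ D := Nat.mul_le_mul_left _ hle
        omega
      rw [hD', he'] at h6
      linarith
    have h7 := Nat.eq_of_mul_eq_mul_left (pow_pos hqpos j') h5
    have h8 := Nat.eq_of_mul_eq_mul_left hqpos h7
    exact h8.symm

example (hP : Cfsg.Agent.H14.Cq.StPerp.{u, v}) : Cfsg.Agent.H14.Cq.StAvg.{u, v} := avg hP

end Cfsg.Agent.H87.Cq

#print axioms Cfsg.Agent.H87.Cq.avg
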