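import Mathlib
import Cfsg.Agent.H14.CqDefs

/-!
# CQ-PERP (helper87, for helper14's COUNT sub-tree of S5987 / S5973)

The orthogonal complement of a subspace for a nondegenerate polar form has `q^(D - dim U)`
elements.
-/

set_option autoImplicit false

namespace Cfsg.Agent.H87.Cq

open Cfsg.Agent.H14.Cq Module

universe u v

theorem perp : StPerp.{u, v} := by
  intro F _ _ V _ _ _ Q hnd U
  classical
  haveI : Finite V := Module.finite_of_finite F
  set B : LinearMap.BilinForm F V := QuadraticMap.polarBilin Q with hB
  have hBa : ∀ x y, B x y = QuadraticMap.polar ⇑Q x y := fun x y => by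
    rw [hB, QuadraticMap.polarBilin_apply_apply]
  have hker : LinearMap.ker B = ⊥ := by
    rw [Submodule.eq_bot_iff]
    intro x hx
    apply hnd x
    intro y
    have h0 := LinearMap.congr_fun (LinearMap.mem_ker.mp hx) y
    rw [hBa] at h0
    simpa using h0
  have h1 := LinearMap.BilinForm.finrank_add_finrank_orthogonal' (B := B) U
  rw [hker, inf_bot_eq, finrank_bot, add_zero] at h1
  have h2 : Module.finrank F (B.orthogonal U) = Module.finrank F V - Module.finrank F U := by
    omega
  have h3 : Nat.card {w : V // ∀ u ∈ U, QuadraticMap.polar ⇑Q u w = 0} =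
      Nat.card (B.orthogonal U) := by
    apply Nat.card_congr
    refine Equiv.subtypeEquivRight (fun w => ?_)
    rw [LinearMap.BilinForm.mem_orthogonal_iff]
    constructor
    · intro h n hn
      rw [hBa]
      exact h n hn
    · intro h n hn
      have := h n hn
      rw [hBa] at this
      exact this
  rw [h3, ← h2]
  haveI : Fintype (B.orthogonal U) := Fintype.ofFinite _
  rw [Nat.card_eq_fintype_card, Module.card_eq_pow_finrank (K := F)]

example : Cfsg.Agent.H14.Cq.StPerp.{u, v} := perp

end Cfsg.Agent.H87.Cq

#print axioms Cfsg.Agent.H87.Cq.perp
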