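import Mathlib
import Cfsg.Agent.H88.AltFDefs
import Cfsg.Agent.H69.SymSylowE

set_option autoImplicit false

/-!
helper87: piece S5165-GENP for helper88. A Sylow `p`-subgroup of an alternating group (on any finite
type) is generated by its elements of order dividing `p` (transport of helper69's statement on `Fin n`).
-/

namespace Cfsg.Agent.H87.AltF

open Cfsg

theorem genP_main : Cfsg.Agent.H88.AltF.StmtGenP := by
  intro α _ _ p _ S
  classical
  let ε : alternatingGroup α ≃* alternatingGroup (Fin (Fintype.card α)) :=
    Equiv.altCongrHom (Fintype.equivFin α)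
  have hsurj : Function.Surjective ε.toMonoidHom := ε.surjective
  have hinj : Function.Injective ε.toMonoidHom := ε.injective
  have h1 : Cfsg.Agent.H69.GenP p
      ((S.mapSurjective hsurj : Sylow p (alternatingGroup (Fin (Fintype.card α)))) :
        Subgroup (alternatingGroup (Fin (Fintype.card α)))) := by
    by_cases hp : p = 2
    · subst hp
      exact Cfsg.Agent.H69.genP_sylow_alt_two _ _
    · exact Cfsg.Agent.H69.genP_sylow_alt_odd p hp _ _
  rw [Sylow.coe_mapSurjective] at h1
  exact Cfsg.Agent.H69.GenP.of_map_injective _ hinj h1

example : ∀ (α : Type) [Fintype α] [DecidableEq α] (p : ℕ) [Fact p.Prime]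
    (S : Sylow p (alternatingGroup α)),
    Cfsg.Agent.H69.GenP p (S : Subgroup (alternatingGroup α)) := genP_main

end Cfsg.Agent.H87.AltF
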