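import Mathlib
import Cfsg.Agent.H88.AltFDefs
import Cfsg.Agent.H87.QSTransport
import Cfsg.Agent.H87.FusIso
import Cfsg.Agent.H86.FusGroup

set_option autoImplicit false

/-!
helper87: piece S5165-ISO for helper88. Simplicity of the fusion system of a finite group on a Sylow
subgroup does not depend on the Sylow subgroup and is invariant under group isomorphisms.
-/

namespace Cfsg.Agent.H87.AltF

open Cfsg Cfsg.FusionSystem Cfsg.Agent.H86 Cfsg.Agent.H87

theorem iso_main : Cfsg.Agent.H88.AltF.StmtIso := by
  intro G G' _ _ _ _ e p _ S S' hsimple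
  classical
  have hsurj : Function.Surjective e.toMonoidHom := e.surjective
  obtain ⟨g, hg⟩ := MulAction.exists_smul_eq G' (S.mapSurjective hsurj) S'
  let c : G ≃* G' := e.trans (MulAut.conj g)
  have hc : ∀ x : G, c x = g * e x * g⁻¹ := fun x => rfl
  let ι : (S : Subgroup G) →* G' := c.toMonoidHom.comp (S : Subgroup G).subtype
  have hι : ∀ x : (S : Subgroup G), ι x = c (x : G) := fun x => rfl
  have hιinj : Function.Injective ι := by
    intro x y hxy
    rw [hι, hι] at hxy
    exact Subtype.ext (c.injective hxy)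
  have hreal : (groupFusionSystem (S : Subgroup G)).IsRealizedBy ι := by
    refine ⟨hιinj, fun P hP φ hφ => ?_⟩
    constructor
    · rintro ⟨-, -, k, hk⟩
      refine ⟨c k, fun x => ?_⟩
      rw [hι, hι]
      show c (φ x) = c k * c (x : G) * (c k)⁻¹
      rw [hk x, map_mul, map_mul, map_inv]
    · rintro ⟨h, hh⟩
      refine ⟨hP, hφ, c.symm h, fun x => ?_⟩
      apply c.injective
      have h1 := hh x
      rw [hι, hι] at h1
      rw [map_mul, map_mul, map_inv, MulEquiv.apply_symm_apply]
      exact h1
  have hrange : ι.range = (S' : Subgroup G') := by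
    rw [← hg]
    ext y
    rw [Sylow.coe_subgroup_smul, Subgroup.mem_pointwise_smul_iff_inv_smul_mem,
      Sylow.coe_mapSurjective]
    constructor
    · rintro ⟨x, rfl⟩
      refine ⟨(x : G), x.2, ?_⟩
      rw [hι, hc]
      simp only [MulAut.smul_def, MulAut.conj_inv_apply]
      show e (x : G) = g⁻¹ * (g * e (x : G) * g⁻¹) * g
      group
    · rintro ⟨x, hx, hxy⟩
      refine ⟨⟨x, hx⟩, ?_⟩
      rw [hι, hc]
      have h2 : (e.toMonoidHom x : G') = e x := rfl
      rw [h2] at hxy
      show g * e x * g⁻¹ = y
      rw [hxy]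
      simp only [MulAut.smul_def, MulAut.conj_inv_apply]
      group
  have hiso := fusIso_of_realized hreal
    ((MonoidHom.ofInjective hιinj).trans (MulEquiv.subgroupCongr hrange)) (fun x => rfl)
  exact hiso.isSimple hsimple

example : ∀ (G G' : Type) [Group G] [Group G'] [Finite G] [Finite G'] (_e : G ≃* G') (p : ℕ)
    [Fact p.Prime] (S : Sylow p G) (S' : Sylow p G'),
    (groupFusionSystem (S : Subgroup G)).IsSimple p →
    (groupFusionSystem (S' : Subgroup G')).IsSimple p := iso_main

end Cfsg.Agent.H87.AltF
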