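import Mathlib
import Cfsg.Prelude.Def_Spor_Conway
import Cfsg.Agent.H33.C2.Defs

/-!
# The second Conway group of the Prelude and the stabiliser of the standard vector `b32`

Piece C2-ISO of the team project S2070 (helper33); port of `Cfsg/Agent/H33/C3/Iso.lean` by helper87.
-/

set_option autoImplicit false

namespace Cfsg.Agent.H87.C2

open Cfsg Cfsg.Agent.H9 Cfsg.Agent.H33 Cfsg.Agent.H33.C2

theorem vecU_sq32 : sqNorm Spor.vecU = 32 := by decide +kernel

/-- the group of the Prelude as a stabiliser in the automorphism group of the lattice -/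
noncomputable def co2Equiv : ↥Spor.Co2 ≃* ↥(MulAction.stabilizer ↥Co0 Spor.leechU) where
  toFun g := ⟨⟨g.1, g.2.1⟩, MulAction.mem_stabilizer_iff.mpr (MulAction.mem_stabilizer_iff.mp g.2.2)⟩
  invFun g := ⟨g.1.1, ⟨g.1.2, MulAction.mem_stabilizer_iff.mpr (MulAction.mem_stabilizer_iff.mp g.2)⟩⟩
  left_inv _ := rfl
  right_inv _ := rfl
  map_mul' _ _ := rfl

/-- piece C2-ISO -/
theorem iso2 : StIso2 := by
  have hv : sqNorm ((Spor.leechU : leechLattice) : GolayPt → ℤ) = 32 := vecU_sq32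
  obtain ⟨h, hh, he⟩ := co0_trans32 Spor.leechU b32 hv b32_sq
  exact ⟨co2Equiv.trans (conjEquiv _ _ (⟨h, hh⟩ : ↥Co0) (stab_conj2 h hh Spor.leechU b32 he))⟩

example : Cfsg.Agent.H33.C2.StIso2 := Cfsg.Agent.H87.C2.iso2

end Cfsg.Agent.H87.C2
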