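import Mathlib
import Cfsg.Agent.H33.C2.ChDefs
import Cfsg.Agent.H69.MclOrbStab

/-!
# Soundness of the chain certificate for `K2` (piece C2-TREE of S2070, helper33's project)

`mulSound`, `stabNil`, `level` (helper87; the proof follows `Cfsg/Agent/H33/C3/Chain.lean` with the
transversal replaced by a Schreier tree).
-/

set_option autoImplicit false

namespace Cfsg.Agent.H87.C2

open Cfsg Cfsg.Agent.H9 Cfsg.Agent.H33 Cfsg.Agent.H33.C3 Cfsg.Agent.H33.C2

theorem allB_beq2 (f g : ℕ → ℕ) (n : ℕ) :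
    allB (fun p => Nat.beq (f p) (g p)) n = true ↔ ∀ p < n, f p = g p := by
  rw [allB_iff]
  constructor
  · intro h j hj
    exact Nat.eq_of_beq_eq_true (h j hj)
  · intro h j hj
    rw [h j hj]
    exact Nat.beq_refl _

theorem lt_of_succ_lt2 (f : ℕ → ℕ) (n : ℕ) (hs : ∀ e, e + 1 < n → f e < f (e + 1)) :
    ∀ i j, i < j → j < n → f i < f j := by
  intro i j hij
  induction j with
  | zero => omega
  | succ j ih =>
    intro hj
    rcases Nat.lt_succ_iff_lt_or_eq.mp hij with h1 | h1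
    · exact (ih h1 (by omega)).trans (hs j hj)
    · subst h1; exact hs i hj

theorem inj_succ2 (f : ℕ → ℕ) (n : ℕ) (hs : ∀ e, e + 1 < n → f e < f (e + 1)) :
    ∀ i j, i < n → j < n → f i = f j → i = j := by
  intro i j hi hj e
  rcases Nat.lt_trichotomy i j with h | h | h
  · exact absurd e (lt_of_succ_lt2 f n hs i j h hj).ne
  · exact h
  · exact absurd e.symm (lt_of_succ_lt2 f n hs j i h hi).ne

/-- piece C2-TREE (1): products of coded elements of `K2` -/
theorem mulSound : StMulSound := by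
  rintro a b c ⟨ga, hga, ra⟩ ⟨gb, hgb, rb⟩ hc
  refine ⟨ga * gb, K2.mul_mem hga hgb, fun p => ?_⟩
  rw [Equiv.Perm.mul_apply, ra, rb]
  exact ((allB_beq2 _ _ _).mp hc p.val p.isLt).symm

theorem mem_StabL (bs : List ℕ) (g : Equiv.Perm (Fin 4600)) :
    g ∈ StabL bs ↔ g ∈ K2 ∧ ∀ b ∈ bs, g (pt b) = pt b := by
  unfold StabL
  simp only [Subgroup.mem_inf, Subgroup.mem_iInf, MulAction.mem_stabilizer_iff,
    Equiv.Perm.smul_def]

/-- piece C2-TREE (2): the chain starts at `K2` -/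
theorem stabNil : StStabNil := by
  show StabL [] = K2
  ext g
  rw [mem_StabL]
  constructor
  · exact fun h => h.1
  · exact fun h => ⟨h, fun b hb => absurd hb (List.not_mem_nil)⟩

theorem stabL_cons (r : ℕ) (bs : List ℕ) :
    StabL (r :: bs) = StabL bs ⊓ MulAction.stabilizer (Equiv.Perm (Fin 4600)) (pt r) := by
  ext g
  rw [Subgroup.mem_inf, mem_StabL, mem_StabL, MulAction.mem_stabilizer_iff, Equiv.Perm.smul_def]
  constructor
  · rintro ⟨h1, h2⟩
    exact ⟨⟨h1, fun b hb => h2 b (List.mem_cons_of_mem _ hb)⟩, h2 r List.mem_cons_self⟩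
  · rintro ⟨⟨h1, h2⟩, h3⟩
    refine ⟨h1, fun b hb => ?_⟩
    rcases List.mem_cons.mp hb with rfl | hb
    · exact h3
    · exact h2 b hb

/-- piece C2-TREE (3): a valid Schreier tree bounds the index of the next stabiliser -/
theorem level : StLevel := by
  intro bs gl T n r hr hgl hfix hbs hT
  classical
  have hc : ∀ t < n, tQ (fldW 64 T t) < 4600 ∧
      (t + 1 < n → tQ (fldW 64 T t) < tQ (fldW 64 T (t + 1))) ∧
      ((tD (fldW 64 T t) = 0 ∧ tQ (fldW 64 T t) = r) ∨
        (tU (fldW 64 T t) < n ∧ tD (fldW 64 T (tU (fldW 64 T t))) < tD (fldW 64 T t) ∧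
          tG (fldW 64 T t) < gl.length ∧
          g16 (gl.getD (tG (fldW 64 T t)) 0) (tQ (fldW 64 T (tU (fldW 64 T t))))
            = tQ (fldW 64 T t))) := by
    intro t ht
    have h0 := (allB_iff _ _).mp hT t ht
    simp only [chkTr, Bool.and_eq_true, Bool.or_eq_true, Nat.blt_eq, Nat.beq_eq] at h0
    obtain ⟨h1, h2, h3⟩ := h0
    refine ⟨h1, fun hlt => ?_, h3⟩
    rcases h2 with h2 | h2
    · omega
    · exact h2
  have hgen : ∀ c ∈ gl, ∃ s ∈ StabL bs, PRep2 s c := by
    intro c hcgl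
    obtain ⟨s, hs, rs⟩ := hgl c hcgl
    refine ⟨s, (mem_StabL bs s).mpr ⟨hs, fun b hb => ?_⟩, rs⟩
    have hb4 : b < 4600 := by
      have h1 := List.all_eq_true.mp hbs b hb
      simp only [Nat.blt_eq] at h1
      exact h1
    have hcb : g16 c b = b := by
      have h1 := List.all_eq_true.mp hfix c hcgl
      have h2 := List.all_eq_true.mp h1 b hb
      exact Nat.eq_of_beq_eq_true h2
    apply Fin.ext
    rw [rs]
    show g16 c (b % 4600) = b % 4600
    rw [Nat.mod_eq_of_lt hb4, hcb]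
  have htree : ∀ d, ∀ t < n, tD (fldW 64 T t) = d →
      ∃ g ∈ StabL bs, (g (pt r)).val = tQ (fldW 64 T t) := by
    intro d
    induction d using Nat.strong_induction_on with
    | _ d ih =>
      intro t ht hd
      obtain ⟨-, -, h3⟩ := hc t ht
      rcases h3 with ⟨-, hq⟩ | ⟨hu, hdu, hG, hg⟩
      · refine ⟨1, (StabL bs).one_mem, ?_⟩
        show r % 4600 = _
        rw [Nat.mod_eq_of_lt hr, hq]
      · obtain ⟨gp, hgp, rgp⟩ := ih _ (hd ▸ hdu) _ hu rfl
        have hmem : gl.getD (tG (fldW 64 T t)) 0 ∈ gl := by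
          rw [List.getD_eq_getElem _ _ hG]
          exact List.getElem_mem _
        obtain ⟨s, hs, rs⟩ := hgen _ hmem
        refine ⟨s * gp, (StabL bs).mul_mem hs hgp, ?_⟩
        rw [Equiv.Perm.mul_apply, rs, rgp, hg]
  let f : Fin n → Fin 4600 := fun t => ⟨tQ (fldW 64 T t) % 4600, Nat.mod_lt _ (by norm_num)⟩
  have hf : Function.Injective f := by
    intro t t' e
    have e1 : tQ (fldW 64 T t) % 4600 = tQ (fldW 64 T t') % 4600 := congrArg Fin.val e
    rw [Nat.mod_eq_of_lt (hc t t.2).1, Nat.mod_eq_of_lt (hc t' t'.2).1] at e1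
    exact Fin.ext (inj_succ2 (fun t => tQ (fldW 64 T t)) n
      (fun e he => (hc e (by omega)).2.1 he) t t' t.2 t'.2 e1)
  have hO := Cfsg.Agent.H69.Mcl.orbit_stab_le (StabL bs) (pt r) (Finset.univ.image f) (by
    intro q hq
    rw [Finset.mem_image] at hq
    obtain ⟨t, -, rfl⟩ := hq
    obtain ⟨g, hg, rg⟩ := htree _ t t.2 rfl
    refine ⟨g, hg, Fin.ext ?_⟩
    show (g (pt r)).val = tQ (fldW 64 T t) % 4600
    rw [Nat.mod_eq_of_lt (hc t t.2).1, rg])
  rw [Finset.card_image_of_injective _ hf, Finset.card_univ, Fintype.card_fin] at hO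
  rw [stabL_cons]
  exact hO

example : Cfsg.Agent.H33.C2.StMulSound := Cfsg.Agent.H87.C2.mulSound
example : Cfsg.Agent.H33.C2.StStabNil := Cfsg.Agent.H87.C2.stabNil
example : Cfsg.Agent.H33.C2.StLevel := Cfsg.Agent.H87.C2.level

end Cfsg.Agent.H87.C2
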