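import Cfsg.Agent.H87.OlBase
import Cfsg.Agent.H87.OpPrime
import Cfsg.Agent.H87.PPowerNormal
import Cfsg.Agent.H88.Puig
import Cfsg.Agent.H16.OliverAutInv

set_option autoImplicit false

/-!
# Craven's theorem (S5141): definitions

`E` weakly normal in `F` over `T`, `X = C_S(T)`.  A map `f` of `E` on an `E`-centric `P ≤ T` is
*good* if it extends to a map of `F` on `P X` moving every element of `X` by an element of `T`.
-/

namespace Cfsg.Agent.H87.Cr

open Cfsg Cfsg.FusionSystem Cfsg.Agent.H86 Cfsg.Agent.H87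

variable {Ω : Type*} [Group Ω] {S T : Subgroup Ω}

/-- `f` on `P` extends to a map of `F` on `P C_S(T)` moving `C_S(T)` by elements of `T`. -/
def GoodOn (F : FusionSystem S) (T P : Subgroup Ω) (f : Ω → Ω) : Prop :=
  ∃ l : Ω → Ω, Mor F (P ⊔ centralizerIn S T) l ∧ (∀ x ∈ P, l x = f x) ∧
    ∀ c ∈ centralizerIn S T, c⁻¹ * l c ∈ T

/-- `k` is a map of `F` on `P C_S(T)` stabilizing `P` which induces on `C_S(T)` modulo `T` the same
map as `b`. -/
def Bar (F : FusionSystem S) (T P : Subgroup Ω) (k b : Ω → Ω) : Prop :=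
  Mor F (P ⊔ centralizerIn S T) k ∧ (∀ x ∈ P, k x ∈ P) ∧
    ∀ c ∈ centralizerIn S T, (k c)⁻¹ * b c ∈ T

/-- Some map of `F` on `P C_S(T)` fixing `P` elementwise induces on `C_S(T)` modulo `T` the same
map as `b`. -/
def Fix (F : FusionSystem S) (T P : Subgroup Ω) (b : Ω → Ω) : Prop :=
  ∃ k : Ω → Ω, Bar F T P k b ∧ ∀ x ∈ P, k x = x

theorem GoodOn.congr {F : FusionSystem S} {P : Subgroup Ω} {f g : Ω → Ω} (h : GoodOn F T P f)
    (hfg : ∀ x ∈ P, f x = g x) : GoodOn F T P g := by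
  obtain ⟨l, hl, hlf, hlc⟩ := h
  exact ⟨l, hl, fun x hx => (hlf x hx).trans (hfg x hx), hlc⟩

theorem GoodOn.conj (F : FusionSystem S) {P : Subgroup Ω} (hTS : T ≤ S) (hPT : P ≤ T) {g : Ω}
    (hg : g ∈ T) : GoodOn F T P (fun x => g * x * g⁻¹) := by
  refine ⟨fun x => g * x * g⁻¹, Mor.conj F (sup_le (hPT.trans hTS) inf_le_left) (hTS hg),
    fun x _ => rfl, fun c hc => ?_⟩
  have h := (mem_centralizerIn_iff.1 hc).2 g hg
  have e : c⁻¹ * (g * c * g⁻¹) = 1 := by rw [h]; group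
  show c⁻¹ * (g * c * g⁻¹) ∈ T
  rw [e]
  exact T.one_mem

/-- A weakly normal pair gives the configuration of Oliver's lemma with `K = Aut_F(T)`. -/
theorem kcfg_of_wn {p : ℕ} {F : FusionSystem S} {E : FusionSystem T}
    (hE : E.IsWeaklyNormalIn F p) : KCfg p F E (F.autGroup T) := by
  have hTS : T ≤ S := hE.2.2.2.1.1
  obtain ⟨hsub, hsc, hai, hfr⟩ := (isInvariantIn_iff hTS).1 hE.2.2
  refine ⟨hE.2.1, hE.1, hsub, hsc, hai, hfr, le_rfl, fun a ha k hk => ?_, fun β hβ => ?_,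
    fun a ha _ _ => ha⟩
  · exact mul_mem (mul_mem ha hk) (inv_mem ha)
  · exact (mem_autGroup_iff hTS β).2 (mor_of_subsystem hsub ((mem_autGroup_iff le_rfl β).1 hβ))

/-- Maps of `F` carry `E`-centric subgroups to `E`-centric subgroups. -/
theorem centric_img {p : ℕ} {F : FusionSystem S} {E : FusionSystem T}
    (hE : E.IsWeaklyNormalIn F p) {P : Subgroup Ω} (hP : E.IsCentric P) {f : Ω → Ω}
    (hf : Mor F P f) : E.IsCentric (imgS P f) :=
  Cfsg.Agent.H16.Oliver.isCentric_imgS (kcfg_of_wn hE) hP hf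

/-- Elements of `P C_S(T)`, `P ≤ T`, are products. -/
theorem mem_sup_cent {P : Subgroup Ω} (hPT : P ≤ T) {y : Ω} (hy : y ∈ P ⊔ centralizerIn S T) :
    ∃ x ∈ P, ∃ c ∈ centralizerIn S T, y = x * c := by
  rw [Subgroup.sup_eq_closure] at hy
  induction hy using Subgroup.closure_induction with
  | mem z hz =>
    rcases hz with hz | hz
    · exact ⟨z, hz, 1, Subgroup.one_mem _, (mul_one z).symm⟩
    · exact ⟨1, Subgroup.one_mem _, z, hz, (one_mul z).symm⟩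
  | one => exact ⟨1, Subgroup.one_mem _, 1, Subgroup.one_mem _, (mul_one 1).symm⟩
  | mul y z _ _ hy hz =>
    obtain ⟨x₁, hx₁, c₁, hc₁, rfl⟩ := hy
    obtain ⟨x₂, hx₂, c₂, hc₂, rfl⟩ := hz
    have h := (mem_centralizerIn_iff.1 hc₁).2 x₂ (hPT hx₂)
    refine ⟨x₁ * x₂, P.mul_mem hx₁ hx₂, c₁ * c₂, Subgroup.mul_mem _ hc₁ hc₂, ?_⟩
    calc x₁ * c₁ * (x₂ * c₂) = x₁ * (c₁ * x₂) * c₂ := by group
      _ = x₁ * (x₂ * c₁) * c₂ := by rw [h]
      _ = x₁ * x₂ * (c₁ * c₂) := by group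
  | inv y _ hy =>
    obtain ⟨x, hx, c, hc, rfl⟩ := hy
    have h := (mem_centralizerIn_iff.1 hc).2 x (hPT hx)
    refine ⟨x⁻¹, P.inv_mem hx, c⁻¹, Subgroup.inv_mem _ hc, ?_⟩
    calc (x * c)⁻¹ = (c * x)⁻¹ := by rw [h]
      _ = x⁻¹ * c⁻¹ := by group

/-- `T ∩ P C_S(T) = P` for `P` centric in `E`. -/
theorem inf_sup_cent {E : FusionSystem T} {P : Subgroup Ω} (hP : E.IsCentric P) :
    T ⊓ (P ⊔ centralizerIn S T) = P := by
  have hPT : P ≤ T := hP.1
  apply le_antisymm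
  · rintro y ⟨hyT, hy⟩
    obtain ⟨x, hx, c, hc, rfl⟩ := mem_sup_cent hPT hy
    have hcT : c ∈ T := by
      have : c = x⁻¹ * (x * c) := by group
      rw [this]
      exact T.mul_mem (T.inv_mem (hPT hx)) hyT
    have hcP : c ∈ P := by
      apply isCentric_self_le hP
      rw [mem_centralizerIn_iff]
      exact ⟨hcT, fun z hz => (mem_centralizerIn_iff.1 hc).2 z (hPT hz)⟩
    exact P.mul_mem hx hcP
  · exact le_inf hPT le_sup_left

end Cfsg.Agent.H87.Cr
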