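import Cfsg.Agent.H87.OlMain
import Cfsg.Agent.H87.OpPrime
import Cfsg.Agent.H5.OpGen0
import Cfsg.Agent.H11.RootClosed
import Cfsg.Agent.H5.OpMSys
import Cfsg.Agent.H69.FsCen

set_option autoImplicit false

/-!
The `p'`-residual subsystem of a normal subsystem `E` of `F` over `T` is contained in every normal
subsystem of `F` over `T`.
-/

namespace Cfsg.Agent.H87

open Cfsg Cfsg.FusionSystem Cfsg.Agent.H86

universe u

variable {Ω : Type u} [Group Ω] {S T : Subgroup Ω}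

open Cfsg.Agent.H11.RootClosed Cfsg.Agent.H5.Op Cfsg.Agent.H69.FsCen

/-- `opSys p F` is the `p'`-residual subsystem of `F`. -/
theorem opSys_isPPrimeResidual [Finite S] {p : ℕ} [Fact p.Prime] (hS : IsPGroup p S)
    (F : FusionSystem S) (hF : F.IsSaturated p) : F.IsPPrimeResidual p (opSys p F) := by
  obtain ⟨-, hfr0, -⟩ :=
    primeIdx_main hS hF (e0Sys p F) (e0Sys_subsystem p F) (gen0_e0Sys p F)
  obtain ⟨hidx, -, hcen⟩ :=
    primeIdx_main hS hF (opSys p F) (opSys_subsystem p F) (gen0_opSys p F)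
  have hfr : ∀ (P : Subgroup Ω) (f : Ω → Ω), Mor F P f →
      ∃ a f₀, Mor F S a ∧ imgS S a = S ∧ Mor (opSys p F) P f₀ ∧ ∀ x ∈ P, f x = a (f₀ x) := by
    intro P f hf
    obtain ⟨φ, hφ, hφf⟩ := hf
    obtain ⟨α, hα, φ₀, hφ₀, hα0⟩ := hfr0 P φ hφ
    have ha := (mem_autGroup_iff le_rfl α).1 hα
    refine ⟨autFun S α, extFun P φ₀, ha, imgS_autFun ha, e0Sys_le_opSys (mor_extFun hφ₀),
      fun x hx => ?_⟩
    have hx0 : φ₀ ⟨x, hx⟩ ∈ S := ((e0Sys p F).le_of_mem hφ₀).2 _
    rw [← hφf ⟨x, hx⟩, hα0 ⟨x, hx⟩ hx0, extFun_of_mem _ _ hx, autFun_of_mem α hx0]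
  refine ⟨?_, hidx, ?_⟩
  · apply bcglo hS (opSys p F) {P | F.IsCentric P}
    · intro P hP Q hPQ
      obtain ⟨f, hf, hfQ⟩ := isConj_iff.1 hPQ
      exact isCentric_of_isConj hP
        (isConj_iff.2 ⟨f, mor_of_subsystem (opSys_subsystem p F) hf, hfQ⟩)
    · intro P hP
      exact Cfsg.Agent.H67.PIdx.satClass_of_frattini hS hF (opSys_subsystem p F) hfr
        (fun a P ha haS hP haP => opSys_closed ha haS hP haP) hP
    · intro D hD
      rw [fusionSystem_le_iff]
      intro P f hf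
      have hmor : ∀ (P : Subgroup Ω), F.IsCentric P → ∀ f, Mor (opSys p F) P f → Mor D P f := by
        rintro P hP f ⟨φ, hφ, hφf⟩
        exact ⟨φ, hD P hP hφ, hφf⟩
      refine opSys_le ?_ ?_ hf
      · intro P hP α hα
        rw [mem_autGroup_iff hP.1]
        exact hmor P hP _ ((mem_autGroup_iff hP.1 _).1 (gen0_opSys p F P hP hα))
      · intro a ha
        exact hmor S (isCentric_self F) a (genA_opSys p F a ha)
    · intro P hPc hPn
      exact absurd ((hcen P).1 hPc) hPn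
  · intro D hD hDidx
    have h0 : Gen0 p F D := fun P hP => hDidx.2 P hP.1
    have hA : GenA p F D := by
      rintro a ⟨ha, haS, P, hP, haP⟩
      exact Cfsg.Agent.H67.PIdx.mor_top_of_mor_centric hS hF hD hDidx.1 ha haS hP
        ((mor_e0Sys_iff.1 haP).2 D h0)
    exact fusionSystem_le_iff.2 (fun P f hf => opSys_le h0 hA hf)

/-- The automizer of `T` in an invariant subsystem over `T` is normalized by `Aut_F(T)`. -/
theorem autGroup_conj_mem {F : FusionSystem S} (hTS : T ≤ S) {D' : FusionSystem T}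
    (hai : AutInv D' F) :
    ∀ a ∈ F.autGroup T, ∀ k ∈ D'.autGroup T, a * k * a⁻¹ ∈ D'.autGroup T := by
  intro a ha k hk
  have ham : Mor F T (autFun T a) := (mem_autGroup_iff hTS a).1 ha
  have hkm : Mor D' T (autFun T k) := (mem_autGroup_iff le_rfl k).1 hk
  have himg : imgS T (autFun T a) = T := imgS_autFun ham
  obtain ⟨χ, hχ, hχeq⟩ := hai T (autFun T k) (autFun T a) le_rfl hkm ham himg
  rw [himg] at hχ
  rw [mem_autGroup_iff le_rfl]
  refine hχ.congr (fun y hy => ?_)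
  have hy' : autFun T a⁻¹ y ∈ T := autFun_mem _ hy
  have h1 := hχeq _ hy'
  rw [autFun_apply_inv a hy] at h1
  rw [h1, autFun_mul _ _ hy, autFun_mul _ _ hy']

/-- **The `p'`-residual of a normal subsystem over `T` lies in every normal subsystem over `T`.** -/
theorem pPrimeResidual_le_normal [Finite S] (p : ℕ) [Fact p.Prime] (hS : IsPGroup p S)
    (F : FusionSystem S) (hF : F.IsSaturated p) {T : Subgroup Ω} (E : FusionSystem T)
    (hE : E.IsNormalIn F p) (D : FusionSystem T) (hD : E.IsPPrimeResidual p D)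
    (D' : FusionSystem T) (hD' : D'.IsNormalIn F p) : D.IsSubsystemOf D' := by
  have hT : F.StronglyClosed T := hE.1.2.2.2.1
  have hTS := hT.1
  haveI : Finite T := finite_of_le hTS
  have hTp : IsPGroup p T := hS.to_le hTS
  obtain ⟨hEsub, -, hEai, hEfr⟩ := (isInvariantIn_iff hTS).1 hE.1.2.2
  obtain ⟨hD'sub, -, hD'ai, hD'fr⟩ := (isInvariantIn_iff hTS).1 hD'.1.2.2
  have hG0 : Gen0 p E D' := gen0_of_invariant hS hF hE hD'.1.2.2
  have hGA : GenA p E D' := by
    rintro a ⟨ha, haT, P, hP, haP⟩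
    have hPD' : D'.IsCentric P := isCentric_of_invariant hE.1.2.2 hD'sub hP
    have hM : E.autGroup T ≤ F.autGroup T := by
      intro β hβ
      exact (mem_autGroup_iff hTS β).2 (mor_of_subsystem hEsub ((mem_autGroup_iff le_rfl β).1 hβ))
    obtain ⟨F₁, hsub₁, hai₁, hfr₁, hM₁, hdec⟩ := exists_mSys hTS hD'sub hD'ai hM
    have hcl₁ : F₁.StronglyClosed T :=
      stronglyClosed_iff.2 ⟨le_rfl, fun R f _ hf x hx => hf.mem hx⟩
    have hnorm := autGroup_conj_mem hTS hD'ai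
    have hKF : D'.autGroup T ≤ F₁.autGroup T := fun β hβ =>
      (mem_autGroup_iff le_rfl β).2 (mor_of_subsystem hsub₁ ((mem_autGroup_iff le_rfl β).1 hβ))
    have hKn : ∀ b ∈ F₁.autGroup T, ∀ k ∈ D'.autGroup T, b * k * b⁻¹ ∈ D'.autGroup T := by
      intro b hb k hk
      obtain ⟨m, hm, δ, hδ, rfl⟩ := hdec b hb
      have e : m * δ * k * (m * δ)⁻¹ = m * (δ * k * δ⁻¹) * m⁻¹ := by group
      rw [e]
      exact hnorm m (hM hm) _ (mul_mem (mul_mem hδ hk) (inv_mem hδ))
    have hKp : ∀ b ∈ F₁.autGroup T, ∀ n : ℕ, b ^ (p ^ n) ∈ D'.autGroup T →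
        b ∈ D'.autGroup T := by
      intro b hb n hbn
      obtain ⟨m, hm, δ, hδ, rfl⟩ := hdec b hb
      refine root_closed_mul (p := p) (D'.autGroup T) hδ (fun ν hν => ?_) (isOfFinOrder_of_finite m)
        (fun j hj => ?_) hbn
      · have h1 := hnorm m⁻¹ (inv_mem (hM hm)) ν hν
        simpa using h1
      · have hmj : m ^ j ∈ E.autGroup T := pow_mem hm j
        apply hG0 T (Cfsg.Agent.H90.isCentric_top E)
        refine ⟨⟨m ^ j, hmj⟩, Subgroup.subset_closure ?_, rfl⟩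
        obtain ⟨k, hk⟩ := hj
        exact ⟨k, by rw [← hk, ← Subgroup.orderOf_coe]⟩
    have haF₁ : Mor F₁ T a :=
      (hM₁ (mkAut ha haT) (mkAut_mem ha haT)).congr (fun x hx => autFun_mkAut ha haT hx)
    have haD' : Mor D' P a := (mor_e0Sys_iff.1 haP).2 D' hG0
    obtain ⟨k, hk, hak⟩ := Cfsg.Agent.H89.Oliver.detect hTp hD'.1.1 hsub₁ hcl₁ hai₁ hfr₁ hKF hKn
      le_rfl hKp hPD' haF₁ haT haD'
    exact ((mem_autGroup_iff le_rfl k).1 hk).congr (fun t ht => (hak t ht).symm)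
  have hres := opSys_isPPrimeResidual hTp E hE.1.1
  intro P
  have hle : (opSys p E).IsSubsystemOf D' :=
    fusionSystem_le_iff.2 (fun P f hf => opSys_le hG0 hGA hf)
  exact (hD.2.2 (opSys p E) hres.1 hres.2.1 P).trans (hle P)

end Cfsg.Agent.H87
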