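import Cfsg.Agent.H87.CrTop
import Cfsg.Agent.H87.NrMain

set_option autoImplicit false
set_option maxHeartbeats 1000000

/-!
# Craven's theorem (S5141)

If `E` is weakly normal in the saturated fusion system `F`, then the `p'`-residual subsystem of `E`
is normal in `F`.
-/

namespace Cfsg.Agent.H87.Cr

open Cfsg Cfsg.FusionSystem Cfsg.Agent.H86 Cfsg.Agent.H87 Cfsg.Agent.H15.Cr Cfsg.Agent.H66.Cr Cfsg.Agent.H32.Cr Cfsg.Agent.H60.Cr Cfsg.Agent.H11.Cr Cfsg.Agent.H87.Cr

variable {Ω : Type*} [Group Ω] {S T : Subgroup Ω}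

/-- The subsystem of `E` of the maps that are good on `E`-centric subgroups. -/
def goodSys [Finite S] (F : FusionSystem S) (E : FusionSystem T) (hTS : T ≤ S) : FusionSystem T :=
  Cfsg.Agent.H88.subSys E (fun P f => E.IsCentric P → GoodOn F T P f)
    (fun _ _ _ _ hfg h hP => (h hP).congr hfg)
    (fun _ _ hP hg _ => GoodOn.conj F hTS hP hg)
    (fun P R f g hf hg hfR h h' hP =>
      goodOn_comp hTS hP hf hg hfR (h hP)
        (h' (isCentric_of_le (isCentric_of_isConj hP (isConj_iff.2 ⟨f, hf, rfl⟩))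
          (by
            intro y hy
            obtain ⟨x, hx, rfl⟩ := hf.mem_imgS.1 hy
            exact hfR x hx) hg.le)))
    (fun P f hf h hP' =>
      goodOn_inv hTS (isCentric_of_isConj hP' (isConj_symm (isConj_iff.2 ⟨f, hf, rfl⟩))) hf
        (h (isCentric_of_isConj hP' (isConj_symm (isConj_iff.2 ⟨f, hf, rfl⟩)))))

theorem mor_goodSys_iff [Finite S] {F : FusionSystem S} {E : FusionSystem T} {hTS : T ≤ S}
    {P : Subgroup Ω} {f : Ω → Ω} :
    Mor (goodSys F E hTS) P f ↔ Mor E P f ∧ (E.IsCentric P → GoodOn F T P f) :=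
  Cfsg.Agent.H88.mor_subSys_iff

/-- **Craven's theorem**: the `p'`-residual subsystem of a weakly normal subsystem is normal. -/
theorem craven [Finite S] (p : ℕ) [Fact p.Prime] (hS : IsPGroup p S) (F : FusionSystem S)
    (hF : F.IsSaturated p) {T : Subgroup Ω} (E : FusionSystem T) (hE : E.IsWeaklyNormalIn F p)
    (D : FusionSystem T) (hD : E.IsPPrimeResidual p D) : D.IsNormalIn F p := by
  have hTS : T ≤ S := hE.2.2.2.1.1
  haveI : Finite T := finite_of_le hTS
  have hTp : IsPGroup p T := hS.to_le hTS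
  have hres := opSys_isPPrimeResidual hTp E hE.1
  have hDeq : D = opSys p E :=
    fusionSystem_ext (fun P => Set.Subset.antisymm (hD.2.2 (opSys p E) hres.1 hres.2.1 P)
      (hres.2.2 D hD.1 hD.2.1 P))
  rw [hDeq]
  refine ⟨⟨hres.1, hF, opSys_invariant hS hE⟩, fun α hα => ?_⟩
  have h0 : Gen0 p E (goodSys F E hTS) := by
    intro P hP
    rw [Subgroup.map_le_iff_le_comap, Subgroup.closure_le]
    rintro α ⟨k, hk⟩
    show (α : MulAut P) ∈ (goodSys F E hTS).autGroup P
    rw [mem_autGroup_iff hP.1, mor_goodSys_iff]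
    refine ⟨(mem_autGroup_iff hP.1 _).1 α.2, fun _ => ?_⟩
    exact goodOn_pElement hS hE hP (α : MulAut P) α.2 k (by rw [Subgroup.orderOf_coe]; exact hk)
  have hA : GenA p E (goodSys F E hTS) := by
    rintro a ⟨ha, haT, P, hP, haP⟩
    rw [mor_goodSys_iff]
    refine ⟨ha, fun _ => ?_⟩
    have h1 : Mor (goodSys F E hTS) P a := (mor_e0Sys_iff.1 haP).2 _ h0
    exact goodOn_top hS hE ha haT hP ((mor_goodSys_iff.1 h1).2 hP)
  have hαm : Mor (opSys p E) T (autFun T α) := (mem_autGroup_iff le_rfl α).1 hα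
  obtain ⟨b, hb, hbα, hbc⟩ := (mor_goodSys_iff.1 (opSys_le h0 hA hαm)).2 (isCentric_self E)
  obtain ⟨hCb, himg⟩ := ext_maps hTS hb hbα
  refine ⟨mkAut hb himg, mkAut_mem hb himg, fun x => ?_, fun c hc => ?_⟩
  · show b x = _
    rw [hbα x x.2, autFun_apply]
  · exact Subgroup.mem_inf.2 ⟨hbc c hc, Subgroup.mul_mem _ (Subgroup.inv_mem _ hc.2) (hCb c hc).2⟩

end Cfsg.Agent.H87.Cr
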