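import Cfsg.Agent.H87.CrDefs
import Cfsg.Agent.H87.CentricExt
import Cfsg.Agent.H15.CrIMG
import Cfsg.Agent.H11.CrBar
import Cfsg.Agent.H11.CrTowerPre
import Cfsg.Agent.H4.CrStepCore
import Cfsg.Agent.H4.CrNormCore
import Cfsg.Agent.Lib.Helper96.CrStepFn

set_option autoImplicit false

/-!
# Craven's theorem (S5141): assembly of the tower argument

`fix_step`, `fix_normalizer` and `fix_top` from the cores of helper4, helper11, helper96 and
helper15.
-/

namespace Cfsg.Agent.H87.Cr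

open Cfsg Cfsg.FusionSystem Cfsg.Agent.H86 Cfsg.Agent.H87

variable {Ω : Type*} [Group Ω] {S T : Subgroup Ω}

theorem fix_step [Finite S] {p : ℕ} [Fact p.Prime] (hS : IsPGroup p S) {F : FusionSystem S}
    {E : FusionSystem T} (hE : E.IsWeaklyNormalIn F p) {P : Subgroup Ω} (hP : E.IsCentric P)
    {k : Ω → Ω} (hk : Mor F (P ⊔ centralizerIn S T) k) (hkP : ∀ x ∈ P, k x = x) :
    ∃ k₁, Mor F (normalizerIn T P ⊔ centralizerIn S T) k₁ ∧
      (∀ y ∈ P ⊔ centralizerIn S T, k₁ y = k y) ∧ ∀ n ∈ normalizerIn T P, n⁻¹ * k₁ n ∈ P :=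
  Cfsg.Agent.H4.Cr.fix_step_core hS hE
    (fun hP' _ hl => Cfsg.Agent.H15.Cr.img_cent hS hE hP' hl)
    (fun hP' hfn _ hk' hkP' => Cfsg.Agent.Lib.Helper96.Cr.fix_step_fn hS hE hP' hfn hk' hkP')
    hP hk hkP

theorem fix_normalizer [Finite S] {p : ℕ} [Fact p.Prime] (hS : IsPGroup p S) {F : FusionSystem S}
    {E : FusionSystem T} (hE : E.IsWeaklyNormalIn F p) {P : Subgroup Ω} (hP : E.IsCentric P)
    {b : Ω → Ω} (hb : ∀ c ∈ centralizerIn S T, b c ∈ centralizerIn S T)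
    (h : Fix F T P b) : ∃ j : ℕ, Fix F T (normalizerIn T P) (b^[p ^ j]) := by
  have hNc : E.IsCentric (normalizerIn T P) :=
    isCentric_of_le hP (Cfsg.Agent.H86.le_normalizerIn hP.1) inf_le_left
  exact Cfsg.Agent.H4.Cr.fix_normalizer_core hS hE hP h
    (fun hk hkP => fix_step hS hE hP hk hkP)
    (fun hbar n => Cfsg.Agent.H11.Cr.bar_iter hS hE hNc hb hbar n)

theorem fix_top [Finite S] {p : ℕ} [Fact p.Prime] (hS : IsPGroup p S) {F : FusionSystem S}
    {E : FusionSystem T} (hE : E.IsWeaklyNormalIn F p) {b : Ω → Ω}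
    (hb : ∀ c ∈ centralizerIn S T, b c ∈ centralizerIn S T)
    {m : ℕ} (hm : m.Coprime p) (hbm : ∀ c ∈ centralizerIn S T, b^[m] c = c)
    {P : Subgroup Ω} (hP : E.IsCentric P) (h : Fix F T P b) : Fix F T T b :=
  Cfsg.Agent.H11.Cr.fix_top_of_norm hS hE
    (fun hP' _ hb' h' => fix_normalizer hS hE hP' hb' h') hb hm hbm hP h

end Cfsg.Agent.H87.Cr
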