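import Cfsg.Agent.H87.CrDefs
import Cfsg.Agent.H15.CrIMG
import Cfsg.Agent.H15.CrEXT
import Cfsg.Agent.H66.CrComp
import Cfsg.Agent.H66.CrInv
import Cfsg.Agent.H32.CrPel
import Cfsg.Agent.H60.CrInvar
import Cfsg.Agent.H11.CrBar
import Cfsg.Agent.H87.CrTower

set_option autoImplicit false
set_option maxHeartbeats 1000000

/-!
# Craven's theorem (S5141): the top step

An automorphism of `T` in `E` that is good on some `E`-centric subgroup is good.
-/

namespace Cfsg.Agent.H87.Cr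

open Cfsg Cfsg.FusionSystem Cfsg.Agent.H86 Cfsg.Agent.H87 Cfsg.Agent.H15.Cr Cfsg.Agent.H66.Cr Cfsg.Agent.H32.Cr Cfsg.Agent.H60.Cr Cfsg.Agent.H11.Cr Cfsg.Agent.H87.Cr

variable {Ω : Type*} [Group Ω] {S T : Subgroup Ω}

/-- Iterates of a self-map preserving a set. -/
theorem iterate_mem_of_maps {A : Subgroup Ω} {f : Ω → Ω} (h : ∀ x ∈ A, f x ∈ A) (n : ℕ) :
    ∀ x ∈ A, f^[n] x ∈ A := by
  induction n with
  | zero => intro x hx; exact hx
  | succ n ih =>
    intro x hx
    rw [Function.iterate_succ_apply']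
    exact h _ (ih x hx)

/-- Iterates of maps agreeing on a stable set agree there. -/
theorem iterate_congr_on {A : Subgroup Ω} {f g : Ω → Ω} (hfg : ∀ x ∈ A, f x = g x)
    (hg : ∀ x ∈ A, g x ∈ A) (n : ℕ) : ∀ x ∈ A, f^[n] x = g^[n] x := by
  induction n with
  | zero => intro x _; rfl
  | succ n ih =>
    intro x hx
    rw [Function.iterate_succ_apply', Function.iterate_succ_apply', ih x hx]
    exact hfg _ (iterate_mem_of_maps hg n x hx)

/-- Powers of an automorphism as iterates. -/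
theorem autFun_pow_iterate {A : Subgroup Ω} (γ : MulAut A) (n : ℕ) :
    ∀ x ∈ A, autFun A (γ ^ n) x = (autFun A γ)^[n] x := by
  induction n with
  | zero => intro x hx; rw [pow_zero, autFun_one hx]; rfl
  | succ n ih =>
    intro x hx
    rw [pow_succ', autFun_mul _ _ hx, ih x hx, Function.iterate_succ_apply']

/-- Iterates of a map of the system stabilizing its source are maps of the system. -/
theorem mor_iterate {F : FusionSystem S} {A : Subgroup Ω} {f : Ω → Ω} (hf : Mor F A f)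
    (h : ∀ x ∈ A, f x ∈ A) (n : ℕ) : Mor F A (f^[n]) := by
  induction n with
  | zero => exact Mor.id F hf.le
  | succ n ih =>
    have := ih.comp hf (iterate_mem_of_maps h n)
    exact this.congr (fun x _ => (Function.iterate_succ_apply' f n x).symm)

/-- The automorphisms of `T` in `E` that are good on `T` form a subgroup. -/
def goodAut [Finite S] (F : FusionSystem S) (E : FusionSystem T) (hTS : T ≤ S) :
    Subgroup (MulAut T) where
  carrier := {γ | γ ∈ E.autGroup T ∧ GoodOn F T T (autFun T γ)}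
  mul_mem' := by
    rintro γ₁ γ₂ ⟨h₁, g₁⟩ ⟨h₂, g₂⟩
    haveI : Finite T := finite_of_le hTS
    refine ⟨mul_mem h₁ h₂, ?_⟩
    have m₁ := (mem_autGroup_iff le_rfl γ₁).1 h₁
    have m₂ := (mem_autGroup_iff le_rfl γ₂).1 h₂
    have := goodOn_comp (F := F) hTS (isCentric_self E) m₂ m₁ (fun x hx => autFun_mem γ₂ hx) g₂ g₁
    exact this.congr (fun x hx => (autFun_mul γ₁ γ₂ hx).symm)
  one_mem' := by
    refine ⟨one_mem _, ?_⟩
    refine ⟨fun x => x, Mor.id F (sup_le hTS inf_le_left), fun x hx => (autFun_one hx).symm,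
      fun c _ => ?_⟩
    show c⁻¹ * c ∈ T
    rw [inv_mul_cancel]
    exact T.one_mem
  inv_mem' := by
    rintro γ ⟨h, g⟩
    haveI : Finite T := finite_of_le hTS
    refine ⟨inv_mem h, ?_⟩
    have m := (mem_autGroup_iff le_rfl γ).1 h
    have himg : imgS T (autFun T γ) = T := imgS_autFun m
    have := goodOn_inv (F := F) hTS (isCentric_self E) m g
    rw [himg] at this
    refine this.congr (fun x hx => ?_)
    have hx' : autFun T γ⁻¹ x ∈ T := autFun_mem _ hx
    have e : autFun T γ (autFun T γ⁻¹ x) = x := autFun_apply_inv γ hx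
    calc invOn T (autFun T γ) x = invOn T (autFun T γ) (autFun T γ (autFun T γ⁻¹ x)) := by rw [e]
      _ = autFun T γ⁻¹ x := invOn_apply m.injOn hx'

theorem mem_goodAut [Finite S] {F : FusionSystem S} {E : FusionSystem T} {hTS : T ≤ S}
    {γ : MulAut T} :
    γ ∈ goodAut F E hTS ↔ γ ∈ E.autGroup T ∧ GoodOn F T T (autFun T γ) := Iff.rfl

/-- **The top step**: an automorphism of `T` in `E` good on an `E`-centric subgroup is good. -/
theorem goodOn_top [Finite S] {p : ℕ} [Fact p.Prime] (hS : IsPGroup p S) {F : FusionSystem S}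
    {E : FusionSystem T} (hE : E.IsWeaklyNormalIn F p) {a : Ω → Ω} (ha : Mor E T a)
    (haT : imgS T a = T) {P : Subgroup Ω} (hP : E.IsCentric P) (hg : GoodOn F T P a) :
    GoodOn F T T a := by
  have hp : p.Prime := Fact.out
  have hTS : T ≤ S := hE.2.2.2.1.1
  obtain ⟨hsub, hsc, -, -⟩ := (isInvariantIn_iff hTS).1 hE.2.2
  haveI : Finite T := finite_of_le hTS
  have hTp : IsPGroup p T := hS.to_le hTS
  have hTc : E.IsCentric T := isCentric_self E
  have hPT : P ≤ T := hP.1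
  have hRS : T ⊔ centralizerIn S T ≤ S := sup_le hTS inf_le_left
  haveI : Finite ↥(T ⊔ centralizerIn S T) := finite_of_le hRS
  have haF : Mor F T a := mor_of_subsystem hsub ha
  -- the automorphism of `T`
  set α : MulAut T := mkAut ha haT with hα
  have hαE : α ∈ E.autGroup T := mkAut_mem ha haT
  have hαa : ∀ x ∈ T, autFun T α x = a x := fun x hx => autFun_mkAut ha haT hx
  -- an extension to `T X`
  obtain ⟨â, hâ, hâa⟩ := exists_ext hS hE hTc haF
  have hâα : ∀ x ∈ T, â x = autFun T α x := fun x hx => (hâa x hx).trans (hαa x hx).symm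
  obtain ⟨hâX, hâimg⟩ := ext_maps hTS hâ hâα
  have hâmaps : ∀ y ∈ T ⊔ centralizerIn S T, â y ∈ T ⊔ centralizerIn S T := by
    intro y hy
    have := hâ.mem_imgS_of_mem hy
    rwa [hâimg] at this
  set β : MulAut ↥(T ⊔ centralizerIn S T) := mkAut hâ hâimg with hβ
  have hββ : ∀ y ∈ T ⊔ centralizerIn S T, autFun _ β y = â y := fun y hy => autFun_mkAut hâ hâimg hy
  -- iterates of `â`
  have hiter : ∀ (n : ℕ), ∀ y ∈ T ⊔ centralizerIn S T, â^[n] y = autFun _ (β ^ n) y := by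
    intro n y hy
    rw [autFun_pow_iterate β n y hy]
    exact iterate_congr_on (fun x hx => (hββ x hx).symm) (fun x hx => autFun_mem β hx) n y hy
  have hiterX : ∀ (n : ℕ), ∀ c ∈ centralizerIn S T, â^[n] c ∈ centralizerIn S T :=
    fun n => iterate_mem_of_maps hâX n
  -- `â` is in `Fix P`
  obtain ⟨l, hl, hla, hlc⟩ := hg
  have hXimg : ∀ c ∈ centralizerIn S T, ∃ w ∈ P ⊔ centralizerIn S T, l w = c ∧ c⁻¹ * w ∈ T := by
    intro c hc
    have hz : c⁻¹ * l c ∈ centralizerIn T (imgS P a) := by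
      rw [mem_centralizerIn_iff]
      refine ⟨hlc c hc, fun y hy => ?_⟩
      obtain ⟨x, hx, rfl⟩ := (ha.restrict hPT).mem_imgS.1 hy
      have h1 : x * c = c * x := (mem_centralizerIn_iff.1 hc).2 x (hPT hx)
      have h2 : a x * c = c * a x := (mem_centralizerIn_iff.1 hc).2 _ (ha.mem (hPT hx))
      have h3 : l x * l c = l c * l x := by
        rw [← hl.map_mul (Subgroup.mem_sup_left hx) (Subgroup.mem_sup_right hc),
          ← hl.map_mul (Subgroup.mem_sup_right hc) (Subgroup.mem_sup_left hx), h1]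
      rw [hla x hx] at h3
      have h2' : a x * c⁻¹ = c⁻¹ * a x := by
        calc a x * c⁻¹ = c⁻¹ * (c * a x) * c⁻¹ := by group
          _ = c⁻¹ * (a x * c) * c⁻¹ := by rw [h2]
          _ = c⁻¹ * a x := by group
      calc a x * (c⁻¹ * l c) = (a x * c⁻¹) * l c := by rw [mul_assoc]
        _ = c⁻¹ * (a x * l c) := by rw [h2', mul_assoc]
        _ = c⁻¹ * (l c * a x) := by rw [h3]
        _ = c⁻¹ * l c * a x := by rw [mul_assoc]
    have hcen : E.IsCentric (imgS P a) :=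
      isCentric_of_isConj hP (isConj_iff.2 ⟨a, ha.restrict hPT, rfl⟩)
    have hz' := isCentric_self_le hcen hz
    obtain ⟨y₀, hy₀, hy₀e⟩ := (ha.restrict hPT).mem_imgS.1 hz'
    refine ⟨c * y₀⁻¹, Subgroup.mul_mem _ (Subgroup.mem_sup_right hc)
      (Subgroup.inv_mem _ (Subgroup.mem_sup_left hy₀)), ?_, ?_⟩
    · rw [hl.map_mul (Subgroup.mem_sup_right hc) (Subgroup.inv_mem _ (Subgroup.mem_sup_left hy₀)),
        hl.map_inv (Subgroup.mem_sup_left hy₀), hla y₀ hy₀, hy₀e]
      group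
    · have : c⁻¹ * (c * y₀⁻¹) = y₀⁻¹ := by group
      rw [this]
      exact T.inv_mem (hPT hy₀)
  have hâimgl : ∀ y ∈ P ⊔ centralizerIn S T, â y ∈ imgS (P ⊔ centralizerIn S T) l := by
    intro y hy
    obtain ⟨x, hx, c, hc, rfl⟩ := mem_sup_cent hPT hy
    rw [hâ.map_mul (Subgroup.mem_sup_left (hPT hx)) (Subgroup.mem_sup_right hc)]
    refine Subgroup.mul_mem _ ?_ ?_
    · rw [hâa x (hPT hx), ← hla x hx]
      exact hl.mem_imgS_of_mem (Subgroup.mem_sup_left hx)
    · obtain ⟨w, hw, hwc, -⟩ := hXimg (â c) (hâX c hc)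
      rw [← hwc]
      exact hl.mem_imgS_of_mem hw
  have hPX : P ⊔ centralizerIn S T ≤ T ⊔ centralizerIn S T := sup_le_sup_right hPT _
  have hk₀ : Mor F (P ⊔ centralizerIn S T) (invOn (P ⊔ centralizerIn S T) l ∘ â) :=
    (hâ.restrict hPX).comp hl.inv hâimgl
  have hk₀P : ∀ x ∈ P, (invOn (P ⊔ centralizerIn S T) l ∘ â) x = x := by
    intro x hx
    show invOn (P ⊔ centralizerIn S T) l (â x) = x
    rw [hâa x (hPT hx), ← hla x hx]
    exact invOn_apply hl.injOn (Subgroup.mem_sup_left hx)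
  have hk₀c : ∀ c ∈ centralizerIn S T,
      ((invOn (P ⊔ centralizerIn S T) l ∘ â) c)⁻¹ * â c ∈ T := by
    intro c hc
    obtain ⟨w, hw, hwc, hwT⟩ := hXimg (â c) (hâX c hc)
    have e : (invOn (P ⊔ centralizerIn S T) l ∘ â) c = w := by
      show invOn (P ⊔ centralizerIn S T) l (â c) = w
      rw [← hwc]
      exact invOn_apply hl.injOn hw
    rw [e]
    have : w⁻¹ * â c = ((â c)⁻¹ * w)⁻¹ := by group
    rw [this]
    exact T.inv_mem hwT
  have hbar₀ : Bar F T P (invOn (P ⊔ centralizerIn S T) l ∘ â) â :=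
    ⟨hk₀, fun x hx => by rw [hk₀P x hx]; exact hx, hk₀c⟩
  -- the `p`-part of the order of `β`
  have ho : orderOf β ≠ 0 := (orderOf_pos β).ne'
  obtain ⟨j, m, hm, hom⟩ := Nat.exists_eq_pow_mul_and_not_dvd ho p hp.ne_one
  have hmcop : m.Coprime p := ((Nat.Prime.coprime_iff_not_dvd hp).2 hm).symm
  have hbarj := bar_iter hS hE hP hâX hbar₀ (p ^ j)
  have hfixP : Fix F T P (â^[p ^ j]) := by
    refine ⟨_, hbarj, fun x hx => ?_⟩
    have h1 : ∀ n : ℕ, (invOn (P ⊔ centralizerIn S T) l ∘ â)^[n] x = x := by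
      intro n
      induction n with
      | zero => rfl
      | succ n ih => rw [Function.iterate_succ_apply', ih, hk₀P x hx]
    exact h1 _
  have hbm : ∀ c ∈ centralizerIn S T, (â^[p ^ j])^[m] c = c := by
    intro c hc
    have hcR : c ∈ T ⊔ centralizerIn S T := Subgroup.mem_sup_right hc
    rw [← Function.iterate_mul, ← hom, hiter _ c hcR, pow_orderOf_eq_one, autFun_one hcR]
  obtain ⟨kT, ⟨hkT, -, hkTc⟩, hkTid⟩ := fix_top hS hE (hiterX (p ^ j)) hmcop hbm hP hfixP
  -- a good extension of `a^[p^j]`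
  have hkTimgT : imgS T kT = T := by
    rw [Mor.imgS_congr (hkT.restrict le_sup_left) hkTid]
    exact Mor.imgS_id T
  have hkTimg : imgS (T ⊔ centralizerIn S T) kT = T ⊔ centralizerIn S T := by
    rw [(img_cent hS hE hTc hkT).2, hkTimgT]
  have hkinv : Mor F (T ⊔ centralizerIn S T) (invOn (T ⊔ centralizerIn S T) kT) := by
    have := hkT.inv
    rwa [hkTimg] at this
  have hkinvmem : ∀ y ∈ T ⊔ centralizerIn S T,
      invOn (T ⊔ centralizerIn S T) kT y ∈ T ⊔ centralizerIn S T := by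
    intro y hy
    apply hkT.invOn_mem
    rw [hkTimg]
    exact hy
  have hbj : Mor F (T ⊔ centralizerIn S T) (â^[p ^ j]) := mor_iterate hâ hâmaps _
  have hg₁ : Mor F (T ⊔ centralizerIn S T) (â^[p ^ j] ∘ invOn (T ⊔ centralizerIn S T) kT) :=
    hkinv.comp hbj hkinvmem
  have hgoodj : GoodOn F T T (autFun T (α ^ (p ^ j))) := by
    refine ⟨_, hg₁, fun x hx => ?_, fun c hc => ?_⟩
    · show â^[p ^ j] (invOn (T ⊔ centralizerIn S T) kT x) = _
      have e : invOn (T ⊔ centralizerIn S T) kT x = x := by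
        have h1 := invOn_apply hkT.injOn (Subgroup.mem_sup_left hx : x ∈ T ⊔ centralizerIn S T)
        rwa [hkTid x hx] at h1
      rw [e, autFun_pow_iterate α _ x hx]
      exact iterate_congr_on hâα (fun y hy => autFun_mem α hy) _ x hx
    · show c⁻¹ * â^[p ^ j] (invOn (T ⊔ centralizerIn S T) kT c) ∈ T
      have hcR : c ∈ T ⊔ centralizerIn S T := Subgroup.mem_sup_right hc
      have hc' := hkinvmem c hcR
      obtain ⟨t₁, ht₁, c₁, hc₁, hc'e⟩ := mem_sup_cent le_rfl hc'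
      have hkc' : kT (invOn (T ⊔ centralizerIn S T) kT c) = c := by
        apply hkT.apply_invOn
        rw [hkTimg]
        exact hcR
      rw [hc'e, hkT.map_mul (Subgroup.mem_sup_left ht₁) (Subgroup.mem_sup_right hc₁),
        hkTid t₁ ht₁] at hkc'
      have h1 := hkTc c₁ hc₁
      have hkc₁ : kT c₁ = t₁⁻¹ * c := by rw [← hkc']; group
      rw [hkc₁] at h1
      rw [hc'e, hbj.map_mul (Subgroup.mem_sup_left ht₁) (Subgroup.mem_sup_right hc₁)]
      have hbt : â^[p ^ j] t₁ ∈ T := by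
        rw [iterate_congr_on hâα (fun y hy => autFun_mem α hy) _ t₁ ht₁,
          ← autFun_pow_iterate α _ t₁ ht₁]
        exact autFun_mem _ ht₁
      have hcomm : ∀ t ∈ T, c⁻¹ * t = t * c⁻¹ := by
        intro t ht
        have := (mem_centralizerIn_iff.1 hc).2 t ht
        calc c⁻¹ * t = c⁻¹ * (t * c) * c⁻¹ := by group
          _ = c⁻¹ * (c * t) * c⁻¹ := by rw [this]
          _ = t * c⁻¹ := by group
      have e : c⁻¹ * (â^[p ^ j] t₁ * â^[p ^ j] c₁) =
          (â^[p ^ j] t₁ * t₁⁻¹) * ((t₁⁻¹ * c)⁻¹ * â^[p ^ j] c₁) := by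
        have h2 := hcomm _ (T.mul_mem hbt (T.inv_mem ht₁))
        calc c⁻¹ * (â^[p ^ j] t₁ * â^[p ^ j] c₁)
            = c⁻¹ * (â^[p ^ j] t₁ * t₁⁻¹) * (t₁ * â^[p ^ j] c₁) := by group
          _ = (â^[p ^ j] t₁ * t₁⁻¹) * c⁻¹ * (t₁ * â^[p ^ j] c₁) := by rw [h2]
          _ = (â^[p ^ j] t₁ * t₁⁻¹) * ((t₁⁻¹ * c)⁻¹ * â^[p ^ j] c₁) := by group
      rw [e]
      exact T.mul_mem (T.mul_mem hbt (T.inv_mem ht₁)) h1
  -- the `p'`-part of the order of `α`
  have hoα : orderOf α ≠ 0 := (orderOf_pos α).ne'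
  obtain ⟨i, M, hM, hoM⟩ := Nat.exists_eq_pow_mul_and_not_dvd hoα p hp.ne_one
  have hM0 : M ≠ 0 := by
    rintro rfl
    exact hM (dvd_zero p)
  have hordM : orderOf (α ^ M) = p ^ i := by
    rw [orderOf_pow_of_dvd hM0 (Dvd.intro_left _ hoM.symm), hoM,
      Nat.mul_div_cancel _ (Nat.pos_of_ne_zero hM0)]
  have hgoodM : GoodOn F T T (autFun T (α ^ M)) :=
    goodOn_pElement hS hE hTc (α ^ M) (pow_mem hαE M) i hordM
  have h1 : α ^ (p ^ j) ∈ goodAut F E hTS := ⟨pow_mem hαE _, hgoodj⟩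
  have h2 : α ^ M ∈ goodAut F E hTS := ⟨pow_mem hαE _, hgoodM⟩
  have hcop : Nat.Coprime (p ^ j) M :=
    Nat.Coprime.pow_left j ((Nat.Prime.coprime_iff_not_dvd hp).2 hM)
  have hbez : ((p ^ j : ℕ) : ℤ) * Nat.gcdA (p ^ j) M + (M : ℤ) * Nat.gcdB (p ^ j) M = 1 := by
    have := Nat.gcd_eq_gcd_ab (p ^ j) M
    rw [hcop.gcd_eq_one] at this
    exact_mod_cast this.symm
  have hα1 : α = (α ^ (p ^ j)) ^ Nat.gcdA (p ^ j) M * (α ^ M) ^ Nat.gcdB (p ^ j) M := by
    rw [← zpow_natCast α (p ^ j), ← zpow_natCast α M, ← zpow_mul, ← zpow_mul, ← zpow_add, hbez,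
      zpow_one]
  have h3 : α ∈ goodAut F E hTS := by
    rw [hα1]
    exact mul_mem (zpow_mem h1 _) (zpow_mem h2 _)
  exact h3.2.congr hαa

end Cfsg.Agent.H87.Cr
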