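import Cfsg.Agent.H66.JyOz
import Cfsg.Agent.Helper55.UqBase

/-!
# S2953 (KILL2, P-side input of helper52): an element of order 3 of `K` outside `M`

For a configuration `Base S M T K L`: some `k ∈ K` with `k ^ 3 = 1` is not in `M`
(`|K : O₂(K)| = 3`, `O₂(K) ≤ T ≤ M`, `K ⊄ M`).
-/

set_option autoImplicit false

namespace Cfsg.Agent.H87.Jx

universe u

/-- Index bookkeeping: `O ≤ X ≤ K`, `|K : O| = 3` and `X ⊄ O` give `K ≤ X`. -/
theorem le_of_relIndex_three {G : Type u} [Group G] (O X K : Subgroup G) (hOX : O ≤ X)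
    (hXK : X ≤ K) (h3 : O.relIndex K = 3) (k : G) (hkX : k ∈ X) (hkO : k ∉ O) : K ≤ X := by
  have hmul := Subgroup.relIndex_mul_relIndex O X K hOX hXK
  rw [h3] at hmul
  have h1 : O.relIndex X ≠ 1 := by
    intro h
    exact hkO (Subgroup.relIndex_eq_one.mp h hkX)
  have h2 : O.relIndex X ∣ 3 := Dvd.intro _ hmul
  have h3' : O.relIndex X = 3 := by
    rcases (Nat.dvd_prime Nat.prime_three).mp h2 with h | h
    · exact absurd h h1
    · exact h
  rw [h3'] at hmul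
  have h4 : X.relIndex K = 1 := by omega
  exact Subgroup.relIndex_eq_one.mp h4

/-- An element of order 3 of `K` lies outside `O₂(K)`. -/
theorem not_mem_core_of_cube {G : Type u} [Group G] [Finite G] (K : Subgroup G) (k : G)
    (hk3 : orderOf k = 3) : k ∉ Cfsg.pCoreOf 2 K := by
  intro hkO
  obtain ⟨n, hn⟩ := (Cfsg.Agent.Helper55.Uq.pCoreOf_isPGroup K) ⟨k, hkO⟩
  have hn' : k ^ (2 ^ n) = 1 := by
    have := congrArg Subtype.val hn
    simpa using this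
  have hdvd : 3 ∣ 2 ^ n := by
    rw [← hk3]
    exact orderOf_dvd_of_pow_eq_one hn'
  have := Nat.Prime.dvd_of_dvd_pow Nat.prime_three hdvd
  omega

/-- The third conjunct of the P-side input: an element `k ∈ K`, `k ^ 3 = 1`, `k ∉ M`;
moreover `k ∉ O₂(K)` and `orderOf k = 3`. -/
theorem k3' {G : Type u} [Group G] [Finite G] (S : Sylow 2 G) (M T K L : Subgroup G)
    (hB : Cfsg.Agent.H64.Jz.Base S M T K L) :
    ∃ k ∈ K, k ^ 3 = 1 ∧ k ∉ M ∧ k ∉ Cfsg.pCoreOf 2 K ∧ orderOf k = 3 := by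
  obtain ⟨hOL, hLT, -, -, -⟩ := Cfsg.Agent.H66.Jy.core_chain S M T K L hB
  have hOT : Cfsg.pCoreOf 2 K ≤ T := hOL.trans hLT
  obtain ⟨-, -, -, -, hT, -, hK, -, -⟩ := hB
  have hTM : T ≤ M := hT.1.2.2.1
  obtain ⟨⟨hJ, -⟩, hKM, -⟩ := hK
  have h3 : (Cfsg.pCoreOf 2 K).relIndex K = 3 := hJ.2.2.1
  have hOK : Cfsg.pCoreOf 2 K ≤ K := Subgroup.map_subtype_le _
  have hdvd : 3 ∣ Nat.card ↥K := by
    have := Subgroup.relIndex_dvd_card (Cfsg.pCoreOf 2 K) K
    rwa [h3] at this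
  haveI : Fact (Nat.Prime 3) := ⟨Nat.prime_three⟩
  obtain ⟨k, hk⟩ := exists_prime_orderOf_dvd_card' 3 hdvd
  have hk' : orderOf (k : G) = 3 := by
    rw [Subgroup.orderOf_coe]
    exact hk
  have hkO : (k : G) ∉ Cfsg.pCoreOf 2 K := not_mem_core_of_cube K (k : G) hk'
  refine ⟨(k : G), k.2, ?_, ?_, hkO, hk'⟩
  · rw [← hk']
    exact pow_orderOf_eq_one _
  · intro hkM
    exact hKM ((le_of_relIndex_three (Cfsg.pCoreOf 2 K) (K ⊓ M) K (le_inf hOK (hOT.trans hTM))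
      inf_le_left h3 (k : G) ⟨k.2, hkM⟩ hkO).trans inf_le_right)

/-- The third conjunct of helper52's `StPSide`. -/
theorem k3 {G : Type u} [Group G] [Finite G] (S : Sylow 2 G) (M T K L : Subgroup G)
    (hB : Cfsg.Agent.H64.Jz.Base S M T K L) : ∃ k ∈ K, k ^ 3 = 1 ∧ k ∉ M := by
  obtain ⟨k, hkK, hk3, hkM, -, -⟩ := k3' S M T K L hB
  exact ⟨k, hkK, hk3, hkM⟩

end Cfsg.Agent.H87.Jx
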