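import Cfsg.Agent.H64.JzFinal
import Cfsg.Agent.H97.JyPFacts
import Cfsg.Agent.H87.JxK3
import Cfsg.Agent.H19.JyGoodA
import Cfsg.Agent.H52.JxKB
import Cfsg.Agent.H54.CharP2

/-!
# S2953 (KILL2): the P-side input `StPSide` of helper52's `kbNorm_of`

For a configuration `Base S M T K L`, `D := O₂(K ⊔ T)`: `|T : D| ≤ 2` (elementwise), `T ∖ D`
inverts `K` modulo `D`, and `K` has an element of order 3 outside `M`.
-/

set_option autoImplicit false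

namespace Cfsg.Agent.H87.Jx

universe u

/-- The P-side facts, written out (a little more than `StPSide`): with `O = O₂(K)`,
`D = O₂(K ⊔ T)`. -/
theorem pside {G : Type u} [Group G] [Finite G] (S : Sylow 2 G) (M T K L : Subgroup G)
    (hB : Cfsg.Agent.H64.Jz.Base S M T K L) :
    (∀ a ∈ T, ∀ b ∈ T, a ∉ Cfsg.pCoreOf 2 (K ⊔ T) → b ∉ Cfsg.pCoreOf 2 (K ⊔ T) →
      a * b ∈ Cfsg.pCoreOf 2 (K ⊔ T)) ∧
    (∀ x ∈ T, x ∉ Cfsg.pCoreOf 2 (K ⊔ T) → ∀ g ∈ K, x * g * x⁻¹ * g ∈ Cfsg.pCoreOf 2 K) ∧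
    Cfsg.pCoreOf 2 K ≤ Cfsg.pCoreOf 2 (K ⊔ T) ∧
    T ≤ Subgroup.normalizer (K : Set G) := by
  have hTK : T ≤ Subgroup.normalizer (K : Set G) :=
    Cfsg.Agent.H64.Jz.normFinal S M T K L hB (Cfsg.Agent.H64.Jz.stMain S M T K L hB)
  obtain ⟨hOL, hLT, -, -, -⟩ := Cfsg.Agent.H66.Jy.core_chain S M T K L hB
  have hOT : Cfsg.pCoreOf 2 K ≤ T := hOL.trans hLT
  have hT2 : IsPGroup 2 ↥T := hB.2.2.2.2.1.1.1
  have hJ : Cfsg.IsJComponent T K := hB.2.2.2.2.2.2.1.1.1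
  have hOK : Cfsg.pCoreOf 2 K ≤ K := Subgroup.map_subtype_le _
  have hOnK : K ≤ Subgroup.normalizer (Cfsg.pCoreOf 2 K : Set G) :=
    Cfsg.Agent.Helper55.J48.le_normalizer_pCoreOf K
  have hOnT : T ≤ Subgroup.normalizer (Cfsg.pCoreOf 2 K : Set G) :=
    hTK.trans (Cfsg.Agent.H54.normalizer_le_normalizer_pCoreOf K)
  obtain ⟨D, k, hDT, hOD, hKD, hTD, hidx, hinv, -, -, hkK, hkO, hk3, -, hdich⟩ :=
    Cfsg.Agent.H97.Jy.pfacts K T (Cfsg.pCoreOf 2 K) hT2 hTK hOK hOT hJ.2.2.1 hOnK hOnT hJ.1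
  have hPD : K ⊔ T ≤ Subgroup.normalizer (D : Set G) := sup_le hKD hTD
  have hD1 : D ≤ Cfsg.pCoreOf 2 (K ⊔ T) :=
    Cfsg.Agent.H19.Jy.le_pCoreOf_of_normal (hDT.trans le_sup_right) (hT2.to_le hDT) hPD
  have hD2 : Cfsg.pCoreOf 2 (K ⊔ T) ≤ D := by
    rcases hdich (Cfsg.pCoreOf 2 (K ⊔ T)) (Subgroup.map_subtype_le _)
      (Cfsg.Agent.Helper55.J48.le_normalizer_pCoreOf (K ⊔ T)) with h | h
    · exact h
    · exfalso
      have hkQ : k ∈ Cfsg.pCoreOf 2 (K ⊔ T) := h hkK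
      obtain ⟨n, hn⟩ := (Cfsg.Agent.Helper55.Uq.pCoreOf_isPGroup (K ⊔ T)) ⟨k, hkQ⟩
      have hn' : k ^ (2 ^ n) = 1 := by
        have := congrArg Subtype.val hn
        simpa using this
      have hcop : Nat.Coprime (2 ^ n) 3 := Nat.Coprime.pow_left n (by decide)
      have hk1 : k = 1 := by
        have h1 : orderOf k ∣ 2 ^ n := orderOf_dvd_of_pow_eq_one hn'
        have h2 : orderOf k ∣ 3 := orderOf_dvd_of_pow_eq_one hk3
        have h3 : orderOf k ∣ Nat.gcd (2 ^ n) 3 := Nat.dvd_gcd h1 h2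
        rw [hcop] at h3
        exact orderOf_eq_one_iff.mp (Nat.dvd_one.mp h3)
      exact hkO (hk1 ▸ Subgroup.one_mem _)
  have hDeq : D = Cfsg.pCoreOf 2 (K ⊔ T) := le_antisymm hD1 hD2
  subst hDeq
  exact ⟨hidx, hinv, hOD, hTK⟩

/-- `StPSide`, exact Prop of `H52/JxKB.lean`. -/
theorem stPSide : Cfsg.Agent.H52.Jx.StPSide.{u} := by
  intro G _ _ S M T K L hB
  obtain ⟨h1, h2, hOD, -⟩ := pside S M T K L hB
  exact ⟨h1, fun x hx hxD g hg => hOD (h2 x hx hxD g hg), k3 S M T K L hB⟩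

example : Cfsg.Agent.H52.Jx.StPSide.{u} := stPSide

end Cfsg.Agent.H87.Jx
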