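import Cfsg.Agent.H87.RS

set_option autoImplicit false

namespace Cfsg.Agent.H87

open Cfsg Cfsg.FusionSystem Cfsg.Agent.H86

variable {Ω : Type*} [Group Ω] {S : Subgroup Ω}

theorem autFun_pow_restrict {P R : Subgroup Ω} (hPR : P ≤ R) (α : MulAut P) (β : MulAut R)
    (h : ∀ x ∈ P, autFun R β x = autFun P α x) (j : ℕ) :
    ∀ x ∈ P, autFun R (β ^ j) x = autFun P (α ^ j) x := by
  induction j with
  | zero =>
    intro x hx
    rw [pow_zero, pow_zero, autFun_one (hPR hx), autFun_one hx]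
  | succ j ih =>
    intro x hx
    rw [pow_succ, pow_succ, autFun_mul _ _ (hPR hx), autFun_mul _ _ hx, h x hx]
    exact ih _ (autFun_mem α hx)

/-- Roberts–Shpectorov inductive step: a fully normalized proper subgroup is fully automized provided
every fully normalized subgroup is receptive and all larger fully normalized subgroups are fully automized. -/
theorem rs_step [Finite S] {p : ℕ} [Fact p.Prime] (hS : IsPGroup p S) {F : FusionSystem S}
    (hrec : ∀ P : Subgroup Ω, F.IsFullyNormalized P → F.IsReceptive P)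
    {P : Subgroup Ω} (hP : F.IsFullyNormalized P) (hne : P ≠ S)
    (IH : ∀ Q : Subgroup Ω, F.IsFullyNormalized Q → Nat.card P < Nat.card Q → F.IsFullyAutomized p Q) :
    F.IsFullyAutomized p P := by
  have hPS : P ≤ S := hP.1
  haveI : Finite P := finite_of_le hPS
  have hTA : autInducedBy S P ≤ F.autGroup P := autInducedBy_le_autGroup F hPS
  have hTp : IsPGroup p (autInducedBy S P) := autInducedBy_isPGroup hS P
  obtain ⟨R, hTR, hRA, hRsyl⟩ := exists_isSylIn_ge hTA hTp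
  refine ⟨hPS, ?_⟩
  by_cases hTR' : autInducedBy S P = R
  · rw [← hTR'] at hRsyl
    exact hRsyl
  exfalso
  have hRp : IsPGroup p R := hRsyl.isPGroup hRA
  obtain ⟨α, hαR, hαN, hαT⟩ := exists_normalizer_not_mem (S := R) hRp le_rfl hTR hTR'
  have hαA : α ∈ F.autGroup P := hRA hαR
  have hf : Mor F P (autFun P α) := (mem_autGroup_iff hPS α).1 hαA
  have himg : imgS P (autFun P α) = P := imgS_autFun hf
  have hNext : normalizerIn S P ≤ extSub S P (autFun P α) := by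
    intro g hg
    rw [mem_extSub_iff hf]
    refine ⟨hg.1, hg.2, ?_⟩
    obtain ⟨γ, hγ⟩ := exists_conjAut hg.2
    have hγT : γ ∈ autInducedBy S P := (mem_autInducedBy_iff S P γ).2 ⟨g, hg.1, hγ⟩
    have h1 : α * γ * α⁻¹ ∈ autInducedBy S P := (Subgroup.mem_normalizer_iff.1 hαN γ).1 hγT
    obtain ⟨h, hhS, hh⟩ := (mem_autInducedBy_iff S P _).1 h1
    refine ⟨h, hhS, fun x hx => ?_⟩
    have h2 := hh (α ⟨x, hx⟩)
    have h3 : (α * γ * α⁻¹) (α ⟨x, hx⟩) = α (γ ⟨x, hx⟩) := by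
      simp [MulAut.mul_apply]
    rw [h3] at h2
    have hmem : g * x * g⁻¹ ∈ P := conj_mem_of_mem_normalizer hg.2 hx
    have h4 : γ ⟨x, hx⟩ = ⟨g * x * g⁻¹, hmem⟩ := Subtype.ext (hγ ⟨x, hx⟩)
    rw [h4] at h2
    rw [autFun_of_mem α hmem, autFun_of_mem α hx]
    exact h2
  obtain ⟨f', hf', hff'⟩ := receptive_extend' (hrec P hP) hf himg
  have hf1 : Mor F (normalizerIn S P) f' := hf'.restrict hNext
  have hPR₁ : P ≤ normalizerIn S P := le_normalizerIn hPS
  have himgP : imgS P f' = P := by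
    rw [← hf.imgS_congr (fun x hx => (hff' x hx).symm)]
    exact himg
  have hmaps : ∀ x ∈ normalizerIn S P, f' x ∈ normalizerIn S P := by
    intro x hx
    refine ⟨hf1.mem hx, ?_⟩
    have := Mor.mem_normalizer_imgS hf1 hPR₁ inf_le_right hx
    rwa [himgP] at this
  haveI : Finite (normalizerIn S P) := finite_of_le (S := S) inf_le_left
  have himg1 : imgS (normalizerIn S P) f' = normalizerIn S P := imgS_eq_of_maps hf1 hmaps
  have hβ₀A : mkAut hf1 himg1 ∈ F.autGroup (normalizerIn S P) := mkAut_mem hf1 himg1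
  have hβ₀P : ∀ x ∈ P, autFun (normalizerIn S P) (mkAut hf1 himg1) x = autFun P α x := fun x hx => by
    rw [autFun_mkAut hf1 himg1 (hPR₁ hx), hff' x hx]
  obtain ⟨k, hk⟩ := hRp ⟨α, hαR⟩
  have hαk : α ^ p ^ k = 1 := by
    have := congrArg Subtype.val hk
    simpa using this
  obtain ⟨j, a, hja, hj1⟩ := exists_pow_pElement (mkAut hf1 himg1) p k
  have hβA : (mkAut hf1 himg1) ^ j ∈ F.autGroup (normalizerIn S P) := Subgroup.pow_mem _ hβ₀A j
  have hβP : ∀ x ∈ P, autFun (normalizerIn S P) ((mkAut hf1 himg1) ^ j) x = autFun P α x := by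
    intro x hx
    rw [autFun_pow_restrict hPR₁ α (mkAut hf1 himg1) hβ₀P j x hx, pow_eq_self_of_modEq hαk hj1]
  generalize (mkAut hf1 himg1) ^ j = β at hja hβA hβP
  have hlt : P < normalizerIn S P := lt_normalizerIn hS (lt_of_le_of_ne hPS hne)
  obtain ⟨R₂, hconj, hR₂fn⟩ := exists_fullyNormalized_conj F (show normalizerIn S P ≤ S from inf_le_left)
  obtain ⟨θ, hθ, hθimg⟩ := isConj_iff.1 hconj
  have hcard : Nat.card P < Nat.card R₂ := by
    rw [← hθimg, hθ.card_imgS]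
    exact card_lt_card_of_lt hlt
  have hR₂a := IH R₂ hR₂fn hcard
  have hR₂S : R₂ ≤ S := hR₂fn.1
  haveI : Finite R₂ := finite_of_le hR₂S
  have hβ'A : MulAut.congr (isoEquiv hθ hθimg) β ∈ F.autGroup R₂ :=
    congr_mem_autGroup hθ hθimg (isoEquiv hθ hθimg) (isoEquiv_apply hθ hθimg) hβA
  have hβ'p : (MulAut.congr (isoEquiv hθ hθimg) β) ^ p ^ a = 1 := by
    rw [← map_pow, hja, map_one]
  have hX : IsPGroup p (Subgroup.zpowers (MulAut.congr (isoEquiv hθ hθimg) β)) :=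
    isPGroup_zpowers_of_pow_eq_one hβ'p
  have hXA : Subgroup.zpowers (MulAut.congr (isoEquiv hθ hθimg) β) ≤ F.autGroup R₂ := by
    rw [Subgroup.zpowers_le]
    exact hβ'A
  obtain ⟨χ, hχA, hχ⟩ := IsSylIn.exists_conj_le hR₂a.2 hXA hX
  have hχβ := hχ _ (Subgroup.mem_zpowers (MulAut.congr (isoEquiv hθ hθimg) β))
  obtain ⟨s, hsS, hs⟩ := (mem_autInducedBy_iff S R₂ _).1 hχβ
  have hχm : Mor F R₂ (autFun R₂ χ) := (mem_autGroup_iff hR₂S χ).1 hχA
  have hθR₂ : ∀ x ∈ normalizerIn S P, θ x ∈ R₂ := fun x hx => by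
    rw [← hθimg]
    exact hθ.mem_imgS_of_mem hx
  have hθ' : Mor F (normalizerIn S P) (autFun R₂ χ ∘ θ) := hθ.comp hχm hθR₂
  have hθ'img : imgS (normalizerIn S P) (autFun R₂ χ ∘ θ) = R₂ := by
    rw [hθ.imgS_comp hχm hθR₂, hθimg]
    exact imgS_autFun hχm
  have hkey : ∀ y ∈ normalizerIn S P,
      (autFun R₂ χ ∘ θ) (autFun (normalizerIn S P) β y) = s * (autFun R₂ χ ∘ θ) y * s⁻¹ := by
    intro y hy
    have h1 := hs (χ (isoEquiv hθ hθimg ⟨y, hy⟩))
    have h2 : (χ * MulAut.congr (isoEquiv hθ hθimg) β * χ⁻¹) (χ (isoEquiv hθ hθimg ⟨y, hy⟩))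
        = χ (isoEquiv hθ hθimg (β ⟨y, hy⟩)) := by
      rw [MulAut.mul_apply, MulAut.mul_apply, MulAut.inv_apply_self, congr_apply_apply]
    rw [h2] at h1
    rw [← autFun_apply χ, ← autFun_apply χ, isoEquiv_apply, isoEquiv_apply] at h1
    rw [autFun_of_mem β hy]
    exact h1
  generalize autFun R₂ χ ∘ θ = θ' at hθ' hθ'img hkey
  have hθ'P : Mor F P θ' := hθ'.restrict hPR₁
  have hsN : s ∈ Subgroup.normalizer ((imgS P θ' : Subgroup Ω) : Set Ω) := by
    apply mem_normalizer_of_forall_conj_mem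
    · intro y hy
      obtain ⟨x, hx, rfl⟩ := hθ'P.mem_imgS.1 hy
      rw [← hkey x (hPR₁ hx), hβP x hx]
      exact hθ'P.mem_imgS_of_mem (autFun_mem α hx)
    · intro y hy
      obtain ⟨x, hx, rfl⟩ := hθ'P.mem_imgS.1 hy
      have hx' : autFun P α⁻¹ x ∈ P := autFun_mem _ hx
      have h1 := hkey _ (hPR₁ hx')
      rw [hβP _ hx', autFun_apply_inv α hx] at h1
      rw [h1]
      have h2 : s⁻¹ * (s * θ' (autFun P α⁻¹ x) * s⁻¹) * s = θ' (autFun P α⁻¹ x) := by group
      rw [h2]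
      exact hθ'P.mem_imgS_of_mem hx'
  have hR₂N : R₂ ≤ normalizerIn S (imgS P θ') := by
    intro y hy
    rw [← hθ'img] at hy
    obtain ⟨x, hx, rfl⟩ := hθ'.mem_imgS.1 hy
    exact ⟨hθ'.mem hx, Mor.mem_normalizer_imgS hθ' hPR₁ inf_le_right hx⟩
  have hcardN : Nat.card (normalizerIn S (imgS P θ')) ≤ Nat.card R₂ := by
    have h1 := hP.2 (imgS P θ') (isConj_iff.2 ⟨θ', hθ'P, rfl⟩)
    rw [← hθ'img, hθ'.card_imgS]
    exact h1
  haveI : Finite (normalizerIn S (imgS P θ')) := finite_of_le (S := S) inf_le_left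
  have hNeq : R₂ = normalizerIn S (imgS P θ') := Subgroup.eq_of_le_of_card_ge hR₂N hcardN
  have hsR₂ : s ∈ R₂ := by
    rw [hNeq]
    exact ⟨hsS, hsN⟩
  rw [← hθ'img] at hsR₂
  obtain ⟨t, ht, hts⟩ := hθ'.mem_imgS.1 hsR₂
  apply hαT
  rw [mem_autInducedBy_iff]
  refine ⟨t, ht.1, fun x => ?_⟩
  have hx := x.2
  have h1 := hkey x (hPR₁ hx)
  rw [hβP x hx, ← hts, ← hθ'.map_inv ht, ← hθ'.map_mul ht (hPR₁ hx),
    ← hθ'.map_mul ((normalizerIn S P).mul_mem ht (hPR₁ hx)) ((normalizerIn S P).inv_mem ht)] at h1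
  have h2 := hθ'.injOn (hPR₁ (autFun_mem α hx))
    ((normalizerIn S P).mul_mem ((normalizerIn S P).mul_mem ht (hPR₁ hx)) ((normalizerIn S P).inv_mem ht)) h1
  rw [← autFun_apply]
  exact h2

theorem rs_fullyAutomized [Finite S] {p : ℕ} [Fact p.Prime] (hS : IsPGroup p S) {F : FusionSystem S}
    (hSa : F.IsFullyAutomized p S)
    (hrec : ∀ P : Subgroup Ω, F.IsFullyNormalized P → F.IsReceptive P) :
    ∀ (n : ℕ) (P : Subgroup Ω), F.IsFullyNormalized P → Nat.card S - Nat.card P ≤ n →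
      F.IsFullyAutomized p P := by
  intro n
  induction n with
  | zero =>
    intro P hP hn
    by_cases hPS : P = S
    · rw [hPS]
      exact hSa
    · refine rs_step hS hrec hP hPS (fun Q hQ hlt => ?_)
      exfalso
      have := Subgroup.card_le_of_le hQ.1
      omega
  | succ n ih =>
    intro P hP hn
    by_cases hPS : P = S
    · rw [hPS]
      exact hSa
    · refine rs_step hS hrec hP hPS (fun Q hQ hlt => ih Q hQ ?_)
      omega

theorem rs_saturated [Finite S] {p : ℕ} [Fact p.Prime] (hS : IsPGroup p S) {F : FusionSystem S}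
    (hSa : F.IsFullyAutomized p S)
    (hrec : ∀ P : Subgroup Ω, F.IsFullyNormalized P → F.IsReceptive P) : F.IsSaturated p := by
  intro P hP
  obtain ⟨Q, hPQ, hQ⟩ := exists_fullyNormalized_conj F hP
  exact ⟨Q, hPQ, rs_fullyAutomized hS hSa hrec _ Q hQ le_rfl, hrec Q hQ⟩

end Cfsg.Agent.H87
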