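import Mathlib
import Cfsg.Agent.H87.PCore

set_option autoImplicit false

namespace Cfsg.Agent.H87

open Subgroup Cfsg

variable {G : Type*} [Group G]

/-- Averaging lemma: an automorphism of `G` which fixes a Sylow `p`-subgroup `T` elementwise and
differs from the identity by elements of an abelian normal subgroup `C ≤ T` is conjugation by an
element of `C`. (Injectivity of restriction `H¹(G; C) → H¹(T; C)`.) -/
theorem aut_eq_conj_of_fix_sylow [Finite G] {p : ℕ} [Fact p.Prime] (T : Sylow p G)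
    (C : Subgroup G) [hCn : C.Normal] (hCT : C ≤ T) (hcomm : ∀ a ∈ C, ∀ b ∈ C, a * b = b * a)
    (ψ : G ≃* G) (hψ : ∀ x ∈ (T : Subgroup G), ψ x = x) (hu : ∀ g : G, ψ g * g⁻¹ ∈ C) :
    ∃ w ∈ C, ∀ g : G, ψ g = w * g * w⁻¹ := by
  classical
  let _ : CommGroup C :=
    { (inferInstance : Group C) with mul_comm := fun a b => Subtype.ext (hcomm a a.2 b b.2) }
  let u : G → C := fun g => ⟨ψ g * g⁻¹, hu g⟩
  let cj : G → (C →* C) := fun h =>
    { toFun := fun c => ⟨h * c * h⁻¹, hCn.conj_mem c c.2 h⟩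
      map_one' := by ext; simp
      map_mul' := by intros; ext; simp }
  have hu_mul : ∀ g h : G, u (g * h) = u g * cj g (u h) := by
    intro g h
    apply Subtype.ext
    show ψ (g * h) * (g * h)⁻¹ = ψ g * g⁻¹ * (g * (ψ h * h⁻¹) * g⁻¹)
    rw [map_mul]
    group
  have hu_T : ∀ t ∈ (T : Subgroup G), u t = 1 := by
    intro t ht
    apply Subtype.ext
    show ψ t * t⁻¹ = 1
    rw [hψ t ht, mul_inv_cancel]
  have hu_right : ∀ g : G, ∀ t ∈ (T : Subgroup G), u (g * t) = u g := by
    intro g t ht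
    rw [hu_mul, hu_T t ht, map_one, mul_one]
  let ubar : G ⧸ (T : Subgroup G) → C := fun q => Quotient.liftOn' q u (fun a b hab => by
    have h1 : a⁻¹ * b ∈ (T : Subgroup G) := QuotientGroup.leftRel_apply.mp hab
    have h2 := hu_right a (a⁻¹ * b) h1
    rw [mul_inv_cancel_left] at h2
    exact h2.symm)
  have hubar : ∀ (h : G) (q : G ⧸ (T : Subgroup G)), ubar (h • q) = u h * cj h (ubar q) := by
    intro h q
    induction q using QuotientGroup.induction_on with
    | H g => exact hu_mul h g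
  have _ : Fintype (G ⧸ (T : Subgroup G)) := Fintype.ofFinite _
  let W : C := ∏ q : G ⧸ (T : Subgroup G), ubar q
  set m := Fintype.card (G ⧸ (T : Subgroup G)) with hm
  have hW : ∀ h : G, W = u h ^ m * cj h W := by
    intro h
    have h1 : ∏ q : G ⧸ (T : Subgroup G), ubar (h • q) = W :=
      Fintype.prod_equiv (MulAction.toPerm h) _ _ (fun q => rfl)
    calc W = ∏ q : G ⧸ (T : Subgroup G), ubar (h • q) := h1.symm
      _ = ∏ q : G ⧸ (T : Subgroup G), (u h * cj h (ubar q)) := by simp only [hubar]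
      _ = u h ^ m * cj h W := by
        rw [Finset.prod_mul_distrib, Finset.prod_const, Finset.card_univ, map_prod]
  have hCp : IsPGroup p C := T.isPGroup'.to_le hCT
  obtain ⟨a, ha⟩ := IsPGroup.iff_card.mp hCp
  have hcop : (Nat.card C).Coprime m := by
    rw [ha]
    apply Nat.Coprime.pow_left
    have h1 : ¬ p ∣ (T : Subgroup G).index := T.not_dvd_index
    have h2 : (T : Subgroup G).index = m := by
      rw [hm, Subgroup.index, Nat.card_eq_fintype_card]
    rw [h2] at h1
    exact (Nat.Prime.coprime_iff_not_dvd Fact.out).mpr h1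
  obtain ⟨w, hw⟩ := (powCoprime hcop).surjective W
  have hw' : w ^ m = W := hw
  refine ⟨(w : G), w.2, fun h => ?_⟩
  have h1 := hW h
  have h2 : u h ^ m = (w * (cj h w)⁻¹) ^ m := by
    rw [mul_pow, inv_pow, ← map_pow, hw', eq_mul_inv_iff_mul_eq]
    exact h1.symm
  have h3 : u h = w * (cj h w)⁻¹ := (powCoprime hcop).injective h2
  have h4 : ψ h * h⁻¹ = w * (h * w * h⁻¹)⁻¹ := congrArg Subtype.val h3
  calc ψ h = ψ h * h⁻¹ * h := by group
    _ = w * (h * w * h⁻¹)⁻¹ * h := by rw [h4]
    _ = w * h * (w : G)⁻¹ := by group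

end Cfsg.Agent.H87
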