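import Mathlib

/-!
# SD-ALG (helper87, for helper23's S2156 project), corrected statement

`StAlg2` is helper23's `Cfsg.Agent.H23.StbD.StAlg` with the all-short disjunct strengthened by `bL = bS`
(the original is false for a disconnected all-short diagram with `bL`, `bS` in different components).
-/

set_option autoImplicit false

namespace Cfsg.Agent.H87.StbD

universe u

/-- **SD-ALG**, corrected: the all-short alternative carries `bL = bS`. -/
def StAlg2 : Prop :=
  ∀ (F : Type u) [Field F] [Finite F] (l : ℕ) (A : ℕ → ℕ → ℤ) (long : ℕ → Bool) (c bL bS : ℕ)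
    (π : ℕ → ℕ) (φ : ℕ → F ≃+ F),
    (c = 2 ∨ c = 3) →
    (∀ i < l, ∀ j < l, i ≠ j → A j i ≠ 0 → A j i = if long i && !long j then -(c : ℤ) else -1) →
    bL < l → bS < l →
    (∀ P : ℕ → Prop, P bS → P bL →
      (∀ i < l, ∀ j < l, i ≠ j → A j i ≠ 0 → long i = long j → P i → P j) → ∀ i < l, P i) →
    ((long bL = true ∧ long bS = false ∧ A bS bL ≠ 0 ∧ A bL bS ≠ 0) ∨
      ((∀ i < l, long i = false) ∧ bL = bS)) →
    (∃ i < l, ∃ j < l, i ≠ j ∧ A j i = -1) →
    (∀ i < l, π i < l) → (∀ i < l, ∀ j < l, π i = π j → i = j) →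
    (∀ i < l, ∀ j < l, i ≠ j → (A (π j) (π i) ≠ 0 ↔ A j i ≠ 0)) →
    ((∀ i < l, long (π i) = long i) ∨ (∀ i < l, long (π i) = !long i)) →
    (∀ i < l, φ i 1 = 1) → (∀ i < l, ∀ a : F, a ≠ 0 → φ i a⁻¹ = (φ i a)⁻¹) →
    (∀ i < l, ∀ j < l, ∀ a : F, a ≠ 0 → ∀ u : F,
      φ i (a ^ A j i * u) = (φ j a) ^ A (π j) (π i) * φ i u) →
    ∃ σ : F ≃+* F, ∀ i < l, ∀ t : F,
      φ i t = σ t ^ (if long (π i) && !long i then ringChar F else 1)

theorem alg2 : StAlg2.{u} := by
  intro F _ _ l A long c bL bS π φ hc hA hbL hbS hconn hLS hex hπ hinj hadj hlen h1 hinv hR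
  have hc1 : (c : ℤ) ≠ 1 := by rcases hc with rfl | rfl <;> norm_num
  have hc0 : c ≠ 0 := by rcases hc with rfl | rfl <;> norm_num
  have hAπ : ∀ i < l, ∀ j < l, i ≠ j → A j i ≠ 0 →
      A (π j) (π i) = if long (π i) && !long (π j) then -(c : ℤ) else -1 := by
    intro i hi j hj hij hne
    exact hA (π i) (hπ i hi) (π j) (hπ j hj) (fun h => hij (hinj i hi j hj h))
      ((hadj i hi j hj hij).mpr hne)
  have K1 : ∀ i < l, ∀ j < l, A j i = -1 → A (π j) (π i) = -1 →
      (∀ t, φ j t = φ i t) ∧ (∀ b u, φ i (b * u) = φ i b * φ i u) := by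
    intro i hi j hj h1' h2'
    have hr : ∀ a : F, a ≠ 0 → ∀ u, φ i (a⁻¹ * u) = (φ j a)⁻¹ * φ i u := by
      intro a ha u
      have h3 := hR i hi j hj a ha u
      rw [h1', h2', zpow_neg_one, zpow_neg_one] at h3
      exact h3
    have heq : ∀ t, φ j t = φ i t := by
      intro t
      by_cases ht : t = 0
      · rw [ht, map_zero, map_zero]
      · have h3 := hr t ht 1
        rw [mul_one, h1 i hi, mul_one, hinv i hi t ht] at h3
        exact (inv_injective h3).symm
    refine ⟨heq, ?_⟩
    intro b u
    by_cases hb : b = 0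
    · rw [hb, zero_mul, map_zero, zero_mul]
    · have h3 := hr b⁻¹ (inv_ne_zero hb) u
      rw [inv_inv, heq, hinv i hi b hb, inv_inv] at h3
      exact h3
  have hsame : ∀ i < l, ∀ j < l, i ≠ j → A j i ≠ 0 → long i = long j →
      A j i = -1 ∧ A (π j) (π i) = -1 := by
    intro i hi j hj hij hne hl
    constructor
    · rw [hA i hi j hj hij hne, hl]; simp
    · rw [hAπ i hi j hj hij hne]
      have h3 : long (π i) = long (π j) := by
        rcases hlen with h | h
        · rw [h i hi, h j hj, hl]
        · rw [h i hi, h j hj, hl]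
      rw [h3]; simp
  rcases hlen with hpres | hrev
  · have hall : ∀ i < l, ∀ t, φ i t = φ bS t := by
      apply hconn (fun k => ∀ t, φ k t = φ bS t)
      · intro t; rfl
      · rcases hLS with ⟨hL, hS, hSL, hLS'⟩ | ⟨hshort, hbb⟩
        · have hne : bS ≠ bL := by
            intro h; rw [h, hL] at hS; exact Bool.noConfusion hS
          have e1 : A bL bS = -1 := by rw [hA bS hbS bL hbL hne hLS', hS]; simp
          have e2 : A (π bL) (π bS) = -1 := by
            rw [hAπ bS hbS bL hbL hne hLS', hpres bS hbS, hS]; simp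
          exact (K1 bS hbS bL hbL e1 e2).1
        · rw [hbb]; intro t; rfl
      · intro i hi j hj hij hne hl hPi t
        obtain ⟨e1, e2⟩ := hsame i hi j hj hij hne hl
        rw [(K1 i hi j hj e1 e2).1 t, hPi t]
    obtain ⟨i, hi, j, hj, hij, hAji⟩ := hex
    have hne : A j i ≠ 0 := by rw [hAji]; norm_num
    have e2 : A (π j) (π i) = -1 := by
      rw [hAπ i hi j hj hij hne, hpres i hi, hpres j hj]
      have h3 := hA i hi j hj hij hne
      rw [hAji] at h3
      split_ifs at h3 ⊢ with hcond
      · exfalso
        apply hc1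
        linarith
      · rfl
    have hmul0 := (K1 i hi j hj hAji e2).2
    have hmul : ∀ b u, φ bS (b * u) = φ bS b * φ bS u := by
      intro b u
      rw [← hall i hi, ← hall i hi, ← hall i hi]
      exact hmul0 b u
    refine ⟨{ (φ bS) with map_mul' := hmul }, ?_⟩
    intro k hk t
    have h3 : (long (π k) && !long k) = false := by rw [hpres k hk]; simp
    rw [h3, hall k hk t]
    simp
  · rcases hLS with ⟨hL, hS, hSL, hLS'⟩ | ⟨hshort, hbb⟩
    swap
    · exfalso
      have h3 := hrev bL hbL
      rw [hshort (π bL) (hπ bL hbL), hshort bL hbL] at h3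
      exact Bool.noConfusion h3
    have hne : bS ≠ bL := by
      intro h; rw [h, hL] at hS; exact Bool.noConfusion hS
    have e1 : A bL bS = -1 := by rw [hA bS hbS bL hbL hne hLS', hS]; simp
    have e2 : A (π bL) (π bS) = -(c : ℤ) := by
      rw [hAπ bS hbS bL hbL hne hLS', hrev bS hbS, hrev bL hbL, hS, hL]; simp
    have hSc : ∀ a, φ bS a = (φ bL a) ^ c := by
      intro a
      by_cases ha : a = 0
      · rw [ha, map_zero, map_zero, zero_pow hc0]
      · have h3 := hR bS hbS bL hbL a ha 1
        rw [e1, e2, zpow_neg_one, mul_one, h1 bS hbS, mul_one, hinv bS hbS a ha, zpow_neg,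
          zpow_natCast] at h3
        exact inv_injective h3
    have e3 : A bS bL = -(c : ℤ) := by
      rw [hA bL hbL bS hbS hne.symm hSL, hL, hS]; simp
    have e4 : A (π bS) (π bL) = -1 := by
      rw [hAπ bL hbL bS hbS hne.symm hSL, hrev bL hbL, hL]; simp
    have hLrel : ∀ a : F, a ≠ 0 → ∀ u, φ bL ((a ^ c)⁻¹ * u) = ((φ bL a) ^ c)⁻¹ * φ bL u := by
      intro a ha u
      have h3 := hR bL hbL bS hbS a ha u
      rw [e3, e4, zpow_neg, zpow_natCast, zpow_neg_one, hSc] at h3
      exact h3
    have hpowc : ∀ a : F, φ bL (a ^ c) = (φ bL a) ^ c := by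
      intro a
      by_cases ha : a = 0
      · rw [ha, zero_pow hc0, map_zero, zero_pow hc0]
      · have h3 := hLrel a ha 1
        rw [mul_one, h1 bL hbL, mul_one, hinv bL hbL (a ^ c) (pow_ne_zero c ha)] at h3
        exact inv_injective h3
    have hadd : ∀ x y : F, (x + y) ^ c = x ^ c + y ^ c := by
      intro x y
      obtain ⟨a, rfl⟩ := (φ bL).surjective x
      obtain ⟨b, rfl⟩ := (φ bL).surjective y
      rw [← map_add, ← hSc, ← hSc, ← hSc, map_add]
    have hsurj : Function.Surjective (fun x : F => x ^ c) := by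
      apply Finite.surjective_of_injective
      intro x y hxy
      have hxy' : x ^ c = y ^ c := hxy
      have h3 : (x - y) ^ c = 0 := by
        have h4 := hadd (x - y) y
        rw [sub_add_cancel, hxy'] at h4
        linear_combination -h4
      exact sub_eq_zero.mp ((pow_eq_zero_iff hc0).mp h3)
    have hmulL : ∀ b u, φ bL (b * u) = φ bL b * φ bL u := by
      intro b u
      by_cases hb : b = 0
      · rw [hb, zero_mul, map_zero, zero_mul]
      · obtain ⟨a, ha'⟩ := hsurj b
        have hab : a ^ c = b := ha'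
        have ha : a ≠ 0 := by
          rintro rfl
          exact hb (by rw [← hab, zero_pow hc0])
        have h3 := hLrel a⁻¹ (inv_ne_zero ha) u
        rw [inv_pow, inv_inv, hinv bL hbL a ha, inv_pow, inv_inv, ← hpowc, hab] at h3
        exact h3
    have hall : ∀ i < l, ∀ t, φ i t = if long i then φ bL t else φ bS t := by
      apply hconn (fun k => ∀ t, φ k t = if long k then φ bL t else φ bS t)
      · intro t; rw [hS]; simp
      · intro t; rw [hL]; simp
      · intro i hi j hj hij hne' hl hPi t
        obtain ⟨e1', e2'⟩ := hsame i hi j hj hij hne' hl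
        rw [(K1 i hi j hj e1' e2').1 t, hPi t, hl]
    have h2or : ringChar F = c ∨ ∀ x : F, x = 0 ∨ x = 1 := by
      rcases hc with rfl | rfl
      · left
        have h := hadd 1 1
        have h2 : (2 : F) = 0 := by linear_combination (1 / 1 : F) * h
        exact CharP.ringChar_of_prime_eq_zero Nat.prime_two (by exact_mod_cast h2)
      · have h := hadd 1 1
        have h6 : (6 : F) = 0 := by linear_combination h
        have h23 : (2 : F) = 0 ∨ (3 : F) = 0 := by
          have h7 : (2 : F) * 3 = 0 := by rw [← h6]; norm_num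
          exact mul_eq_zero.mp h7
        rcases h23 with h2 | h3
        · right
          intro x
          have hx := hadd x 1
          have h8 : x * (x + 1) = 0 := by linear_combination hx - (x ^ 2 + x) * h2
          rcases mul_eq_zero.mp h8 with h0 | h1'
          · left; exact h0
          · right
            linear_combination h1' - h2
        · left
          exact CharP.ringChar_of_prime_eq_zero Nat.prime_three (by exact_mod_cast h3)
    rcases h2or with hchar | hF2
    · refine ⟨{ (φ bL) with map_mul' := hmulL }, ?_⟩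
      intro k hk t
      rw [hall k hk t, hrev k hk]
      cases hlk : long k
      · simp only [Bool.not_false, Bool.and_self, if_true, Bool.false_eq_true, if_false]
        rw [hchar, hSc]
        rfl
      · simp
    · refine ⟨RingEquiv.refl F, ?_⟩
      intro k hk t
      have hφ : φ k t = t := by
        rcases hF2 t with rfl | rfl
        · exact map_zero _
        · exact h1 k hk
      rw [hφ, RingEquiv.refl_apply]
      split_ifs
      · rcases hF2 t with rfl | rfl
        · rw [zero_pow (CharP.ringChar_ne_zero_of_finite F)]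
        · rw [one_pow]
      · rw [pow_one]

end Cfsg.Agent.H87.StbD
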