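import Mathlib
import Cfsg.Agent.S2950
import Cfsg.Agent.S0605
import Cfsg.Agent.Helper55.UqBase
import Cfsg.Agent.H59.SoConj
import Cfsg.Agent.H63.SnIfV
import Cfsg.Agent.H80.GroupBasic
import Cfsg.Agent.H51.Amalgam

/-!
# The `T < S` half of S2951

`s2951_lt_of46`: the statement S2951 with the extra hypotheses `T ≠ S` and `h46` (the conclusion
of S2946 for `T`, `K`, `Z₀`; it is a hypothesis here because the module of S2946 cannot be
imported next to the one of S2950).  Everything is done by conjugating with an element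
`x ∈ N_S(T) ∖ T`, on top of `h46` (the splitting `Z₀ = (Z₀ ∩ Z(⟨K, J(T)⟩)) (Z₀ ∩ W_K)`) and
S2950 (the unique maximal 2-local over `⟨K, J(T)⟩`).
-/

set_option autoImplicit false
open Cfsg

namespace Cfsg.Agent.H87.Zc

open scoped commutatorElement

universe u

variable {G : Type u} [Group G]

theorem mem_cj (H : Subgroup G) (g y : G) :
    y ∈ H.map (MulAut.conj g).toMonoidHom ↔ g⁻¹ * y * g ∈ H := by
  rw [Subgroup.mem_map_equiv, MulAut.conj_symm_apply]

theorem cj_mem {H : Subgroup G} (g : G) {y : G} (hy : y ∈ H) :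
    g * y * g⁻¹ ∈ H.map (MulAut.conj g).toMonoidHom := by
  rw [mem_cj]
  have e : g⁻¹ * (g * y * g⁻¹) * g = y := by group
  rw [e]; exact hy

theorem normalizer_cj (P : Subgroup G) (g : G) :
    (Subgroup.normalizer (P : Set G)).map (MulAut.conj g).toMonoidHom =
      Subgroup.normalizer ((P.map (MulAut.conj g).toMonoidHom : Subgroup G) : Set G) := by
  ext y
  rw [mem_cj, Subgroup.mem_normalizer_iff, Subgroup.mem_normalizer_iff]
  constructor
  · intro h z
    rw [mem_cj, mem_cj]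
    have h1 := h (g⁻¹ * z * g)
    have e : g⁻¹ * y * g * (g⁻¹ * z * g) * (g⁻¹ * y * g)⁻¹ = g⁻¹ * (y * z * y⁻¹) * g := by group
    rw [e] at h1
    exact h1
  · intro h z
    have h1 := h (g * z * g⁻¹)
    rw [mem_cj, mem_cj] at h1
    have e1 : g⁻¹ * (g * z * g⁻¹) * g = z := by group
    have e2 : g⁻¹ * (y * (g * z * g⁻¹) * y⁻¹) * g = g⁻¹ * y * g * z * (g⁻¹ * y * g)⁻¹ := by
      group
    rw [e1, e2] at h1
    exact h1

theorem twoLocal_cj {N : Subgroup G} (h : IsTwoLocal N) (g : G) :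
    IsTwoLocal (N.map (MulAut.conj g).toMonoidHom) := by
  obtain ⟨P, hP, hP1, rfl⟩ := h
  refine ⟨P.map (MulAut.conj g).toMonoidHom, hP.map _, ?_, normalizer_cj P g⟩
  intro hb
  apply hP1
  rw [eq_bot_iff]
  intro y hy
  have h1 : g * y * g⁻¹ ∈ P.map (MulAut.conj g).toMonoidHom := cj_mem g hy
  rw [hb, Subgroup.mem_bot] at h1
  rw [Subgroup.mem_bot]
  have e : y = g⁻¹ * (g * y * g⁻¹) * g := by group
  rw [e, h1]; group

theorem maxTwoLocal_cj {L : Subgroup G} (h : IsMaximalTwoLocal L) (g : G) :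
    IsMaximalTwoLocal (L.map (MulAut.conj g).toMonoidHom) := by
  refine ⟨twoLocal_cj h.1 g, ?_⟩
  intro N hN hle
  have h1 : L ≤ N.map (MulAut.conj g⁻¹).toMonoidHom := by
    intro y hy
    rw [mem_cj, inv_inv]
    exact hle (cj_mem g hy)
  have h2 := h.2 _ (twoLocal_cj hN g⁻¹) h1
  have h3 := Cfsg.Agent.H59.So.map_conj_inv_conj g N
  rw [h2] at h3
  exact h3.symm

/-- an element of `N_S(T) ∖ T` for `T < S` -/
theorem exists_normalizing [Finite G] (S : Sylow 2 G) (T : Subgroup G)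
    (hTS : T ≤ (S : Subgroup G)) (hne : T ≠ (S : Subgroup G)) :
    ∃ x ∈ (S : Subgroup G), x ∉ T ∧ x ∈ Subgroup.normalizer (T : Set G) := by
  haveI : Fact (Nat.Prime 2) := ⟨Nat.prime_two⟩
  haveI hnil : Group.IsNilpotent ↥(S : Subgroup G) := S.isPGroup'.isNilpotent
  have hnc : NormalizerCondition ↥(S : Subgroup G) := normalizerCondition_of_isNilpotent
  have hlt : T.subgroupOf (S : Subgroup G) < ⊤ := by
    rw [lt_top_iff_ne_top]
    intro h
    apply hne
    exact le_antisymm hTS (Subgroup.subgroupOf_eq_top.mp h)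
  have h2 := hnc _ hlt
  obtain ⟨x, hxN, hxT⟩ := SetLike.exists_of_lt h2
  refine ⟨x.1, x.2, ?_, ?_⟩
  · intro hx
    exact hxT (Subgroup.mem_subgroupOf.mpr hx)
  · rw [Subgroup.mem_normalizer_iff] at hxN ⊢
    intro h
    constructor
    · intro hh
      have h3 := (hxN ⟨h, hTS hh⟩).mp (Subgroup.mem_subgroupOf.mpr hh)
      exact Subgroup.mem_subgroupOf.mp h3
    · intro hh
      have hS : h ∈ (S : Subgroup G) := by
        have h3 : x.1⁻¹ * (x.1 * h * x.1⁻¹) * x.1 ∈ (S : Subgroup G) :=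
          mul_mem (mul_mem (inv_mem x.2) (hTS hh)) x.2
        have e : x.1⁻¹ * (x.1 * h * x.1⁻¹) * x.1 = h := by group
        rwa [e] at h3
      have h3 := (hxN ⟨h, hS⟩).mpr (Subgroup.mem_subgroupOf.mpr hh)
      exact Subgroup.mem_subgroupOf.mp h3

/-- a 2-subgroup of `L` over a Sylow 2-subgroup `T` of `L` is `T` -/
theorem sylowIn_max [Finite G] {T L P : Subgroup G} (h : IsSylowTwoIn T L)
    (hP : IsPGroup 2 ↥P) (hTP : T ≤ P) (hPL : P ≤ L) : P ≤ T := by
  haveI : Fact (Nat.Prime 2) := ⟨Nat.prime_two⟩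
  obtain ⟨hTL, hT2, hodd⟩ := h
  have h1 := Subgroup.relIndex_mul_relIndex T P L hTP hPL
  obtain ⟨n, hn⟩ := hP.index (T.subgroupOf P)
  have h2 : T.relIndex P = 2 ^ n := hn
  rw [← h1] at hodd
  have h3 : Odd (T.relIndex P) := (Nat.odd_mul.mp hodd).1
  rw [h2] at h3
  have hn0 : n = 0 := by
    by_contra hn0
    exact (Nat.not_odd_iff_even.mpr ((Nat.even_pow' hn0).mpr even_two)) h3
  rw [hn0, pow_zero] at h2
  exact Subgroup.relIndex_eq_one.mp h2

theorem card_four [Finite G] (A : Subgroup G) (a b : G) (ha : a ∈ A) (hb : b ∈ A)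
    (ha1 : a ≠ 1) (hb1 : b ≠ 1) (hab : a ≠ b) (ha2 : a * a = 1)
    (hall : ∀ y ∈ A, y = 1 ∨ y = a ∨ y = b ∨ y = a * b) : Nat.card ↥A = 4 := by
  classical
  have hset : (A : Set G) = {1, a, b, a * b} := by
    ext y
    constructor
    · intro hy
      rcases hall y hy with h | h | h | h <;> simp [h]
    · intro hy
      simp only [Set.mem_insert_iff, Set.mem_singleton_iff] at hy
      rcases hy with h | h | h | h
      · rw [h]; exact A.one_mem
      · rw [h]; exact ha
      · rw [h]; exact hb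
      · rw [h]; exact A.mul_mem ha hb
  have hc : Nat.card ↥A = (A : Set G).ncard := Nat.card_coe_set_eq (A : Set G)
  rw [hc, hset]
  have h1 : a * b ≠ 1 := by
    intro h
    apply hab
    have h' : a * b = a * a := by rw [h, ha2]
    exact (mul_left_cancel h').symm
  have h2 : a * b ≠ a := by
    intro h
    apply hb1
    have h' : a * b = a * 1 := by rw [h, mul_one]
    exact mul_left_cancel h'
  have h3 : a * b ≠ b := by
    intro h
    apply ha1
    have h' : a * b = 1 * b := by rw [h, one_mul]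
    exact mul_right_cancel h'
  have e1 : ({b, a * b} : Set G).ncard = 2 := Set.ncard_pair (fun h => h3 h.symm)
  have e2 : ({a, b, a * b} : Set G).ncard = 3 := by
    rw [Set.ncard_insert_of_notMem, e1]
    simp only [Set.mem_insert_iff, Set.mem_singleton_iff]
    rintro (h | h)
    · exact hab h
    · exact h2 h.symm
  rw [Set.ncard_insert_of_notMem, e2]
  simp only [Set.mem_insert_iff, Set.mem_singleton_iff]
  rintro (h | h | h)
  · exact ha1 h.symm
  · exact hb1 h.symm
  · exact h1 h.symm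

theorem card_two_elts {A : Subgroup G} (h : Nat.card ↥A = 2) :
    ∃ w ∈ A, w ≠ 1 ∧ ∀ y ∈ A, y = 1 ∨ y = w := by
  obtain ⟨x, y, hxy, huniv⟩ := Nat.card_eq_two_iff.mp h
  have hall : ∀ z : ↥A, z = x ∨ z = y := by
    intro z
    have hz : z ∈ ({x, y} : Set ↥A) := by rw [huniv]; exact Set.mem_univ z
    simpa using hz
  rcases hall 1 with h1 | h1
  · refine ⟨y.1, y.2, ?_, ?_⟩
    · intro hy
      apply hxy
      rw [← h1]
      exact Subtype.ext hy.symm
    · intro z hz
      rcases hall ⟨z, hz⟩ with h2 | h2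
      · left
        exact congrArg Subtype.val (h2.trans h1.symm)
      · right
        exact congrArg Subtype.val h2
  · refine ⟨x.1, x.2, ?_, ?_⟩
    · intro hx
      apply hxy
      rw [← h1]
      exact Subtype.ext hx
    · intro z hz
      rcases hall ⟨z, hz⟩ with h2 | h2
      · right
        exact congrArg Subtype.val h2
      · left
        exact congrArg Subtype.val (h2.trans h1.symm)

theorem sup_two_desc {A B C : Subgroup G} {w : G} (hA : A ≤ C) (hw : w ∈ C)
    (hcomm : ∀ a ∈ C, ∀ b ∈ C, a * b = b * a) (hw2 : w * w = 1)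
    (hB : ∀ y ∈ B, y = 1 ∨ y = w) :
    ∀ y ∈ A ⊔ B, y ∈ A ∨ y * w ∈ A := by
  have key : ∀ y ∈ A ⊔ B, y ∈ C ∧ (y ∈ A ∨ y * w ∈ A) := by
    intro y hy
    rw [Subgroup.sup_eq_closure] at hy
    induction hy using Subgroup.closure_induction with
    | mem z hz =>
      rcases hz with hz | hz
      · exact ⟨hA hz, Or.inl hz⟩
      · rcases hB z hz with h | h
        · rw [h]; exact ⟨one_mem _, Or.inl (one_mem _)⟩
        · rw [h]; exact ⟨hw, Or.inr (by rw [hw2]; exact one_mem _)⟩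
    | one => exact ⟨one_mem _, Or.inl (one_mem _)⟩
    | mul a b _ _ ha hb =>
      refine ⟨mul_mem ha.1 hb.1, ?_⟩
      rcases ha.2 with h1 | h1 <;> rcases hb.2 with h2 | h2
      · exact Or.inl (mul_mem h1 h2)
      · right
        rw [mul_assoc]
        exact mul_mem h1 h2
      · right
        have e : a * b * w = a * w * b := by
          rw [mul_assoc, hcomm b hb.1 w hw, ← mul_assoc]
        rw [e]
        exact mul_mem h1 h2
      · left
        have e : a * b = a * w * (b * w) := by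
          calc a * b = a * (b * (w * w)) := by rw [hw2, mul_one]
            _ = a * (b * w * w) := by rw [mul_assoc b w w]
            _ = a * (w * (b * w)) := by rw [hcomm (b * w) (mul_mem hb.1 hw) w hw]
            _ = a * w * (b * w) := by rw [mul_assoc]
        rw [e]
        exact mul_mem h1 h2
    | inv a _ ha =>
      refine ⟨inv_mem ha.1, ?_⟩
      rcases ha.2 with h1 | h1
      · exact Or.inl (inv_mem h1)
      · right
        have hwi : w⁻¹ = w := inv_eq_of_mul_eq_one_left hw2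
        have e : a⁻¹ * w = (a * w)⁻¹ := by
          rw [mul_inv_rev, hwi, hcomm w hw a⁻¹ (inv_mem ha.1)]
        rw [e]
        exact inv_mem h1
  intro y hy
  exact (key y hy).2

/-- `Ω₁(Z(T)) ≤ Ω₁(Z(J(T)))` -/
theorem omegaCenter_le_J [Finite G] (T : Subgroup G) :
    omegaCenterOf T ≤ omegaCenterOf (thompsonSubgroupOf 2 T) := by
  haveI : Fact (Nat.Prime 2) := ⟨Nat.prime_two⟩
  intro u hu
  obtain ⟨huT, huC, hu2⟩ := Cfsg.Agent.H63.Sn.mem_omegaCenterOf T hu
  have hJT := Cfsg.Agent.Helper55.ThJ.J_le T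
  have huJ : u ∈ thompsonSubgroupOf 2 T := by
    by_cases hu1 : u = 1
    · rw [hu1]; exact one_mem _
    · have ho : orderOf (⟨u, huT⟩ : ↥T) = 2 := by
        apply orderOf_eq_prime
        · apply Subtype.ext
          simpa using hu2
        · intro h
          exact hu1 (congrArg Subtype.val h)
      have hc : (⟨u, huT⟩ : ↥T) ∈
          Subgroup.centralizer (Cfsg.thompsonSubgroup 2 ↥T : Set ↥T) := by
        rw [Subgroup.mem_centralizer_iff]
        intro h _
        apply Subtype.ext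
        exact Subgroup.mem_centralizer_iff.mp huC h.1 h.2
      have h3 := Cfsg.Agent.S0605.result (G := ↥T) (p := 2) _ hc ho
      exact ⟨_, h3, rfl⟩
  exact Cfsg.Agent.H63.Sn.omegaCenterOf_mem _ huJ
    (Subgroup.centralizer_le (SetLike.coe_subset_coe.mpr hJT) huC) hu2

/-- `Ω₁(Z(P)) ≠ 1` for a nontrivial 2-group `P` -/
theorem omegaCenter_ne_bot [Finite G] {P : Subgroup G} (hP : IsPGroup 2 ↥P) (hP1 : P ≠ ⊥) :
    ∃ z ∈ omegaCenterOf P, z ≠ 1 := by
  haveI : Fact (Nat.Prime 2) := ⟨Nat.prime_two⟩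
  haveI : Nontrivial ↥P := (Subgroup.nontrivial_iff_ne_bot P).mpr hP1
  have hc := hP.bot_lt_center
  have hcard : 2 ∣ Nat.card ↥(Subgroup.center ↥P) := by
    rcases (hP.to_subgroup (Subgroup.center ↥P)).card_eq_or_dvd with h | h
    · exact absurd (Subgroup.card_eq_one.mp h) hc.ne'
    · exact h
  obtain ⟨c, hc2⟩ := exists_prime_orderOf_dvd_card' 2 hcard
  refine ⟨((c : ↥P) : G), ?_, ?_⟩
  · apply Cfsg.Agent.H63.Sn.omegaCenterOf_mem
    · exact (c : ↥P).2
    · rw [Subgroup.mem_centralizer_iff]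
      intro h hh
      have h1 := Subgroup.mem_center_iff.mp c.2 ⟨h, hh⟩
      exact congrArg Subtype.val h1
    · have h1 : c ^ 2 = 1 := by rw [← hc2]; exact pow_orderOf_eq_one c
      have h2 := congrArg (fun y : ↥(Subgroup.center ↥P) => ((y : ↥P) : G)) h1
      simpa using h2
  · intro h
    have h1 : c = 1 := by
      apply Subtype.ext
      apply Subtype.ext
      simpa using h
    rw [h1, orderOf_one] at hc2
    exact absurd hc2 (by norm_num)

/-- The `T < S` half of S2951, given the conclusion `h46` of S2946. -/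
theorem s2951_lt_of46 [Finite G] (hL : Cfsg.IsCharacteristicTwoType G)
    (hN : ∀ N : Subgroup G, Cfsg.IsTwoLocal N → Group.IsSolvable ↥N)
    (hZ : ∀ S : Sylow 2 G, Subgroup.centralizer (Cfsg.omegaCenterOf (S : Subgroup G) : Set G) ≤
      Subgroup.normalizer ((S : Subgroup G) : Set G)) (hO : Cfsg.pCore 2 G = ⊥)
    (S : Sylow 2 G) (M : Subgroup G) (hM : Cfsg.IsTwoLocal M)
    (hMJ : Subgroup.normalizer (Cfsg.thompsonSubgroupOf 2 (S : Subgroup G) : Set G) ≤ M)
    (T : Subgroup G) (hT : T ∈ Cfsg.maxStraddlingTwoSubgroups M)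
    (hTS : T ≤ (S : Subgroup G)) (K : Subgroup G) (hK : K ∈ Cfsg.jComponentsOutside M T)
    (L : Subgroup G) (hLmax : Cfsg.IsMaximalTwoLocal L)
    (hKL : K ⊔ Cfsg.thompsonSubgroupOf 2 T ≤ L)
    (Z Z₀ : Subgroup G) (hZdef : Z = Cfsg.omegaCenterOf (S : Subgroup G))
    (hZ₀ : Z₀ = Cfsg.omegaCenterOf (Cfsg.thompsonSubgroupOf 2 T))
    (h46 : Nat.card ↥(Z₀ ⊓ Cfsg.wOf K) = 2 ∧
      (Z₀ ⊓ ((K ⊔ Cfsg.thompsonSubgroupOf 2 T) ⊓
        Subgroup.centralizer ((K ⊔ Cfsg.thompsonSubgroupOf 2 T) : Set G))) ⊔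
          (Z₀ ⊓ Cfsg.wOf K) = Z₀)
    (hne : T ≠ (S : Subgroup G)) :
    Z₀ ⊓ Cfsg.wOf K ≠ ⊥ ∧
      ((Z = Z₀ ∧ Nat.card ↥Z₀ = 2) ∨ (Z = Z₀ ∧ Nat.card ↥Z₀ = 4 ∧ T = (S : Subgroup G)) ∨
        (Cfsg.omegaCenterOf T = Z₀ ∧ Nat.card ↥Z₀ = 4 ∧
          (L ⊓ Subgroup.centralizer (Z₀ : Set G)).relIndex
            (Subgroup.normalizer (Z₀ : Set G)) = 2)) := by
  classical
  haveI : Fact (Nat.Prime 2) := ⟨Nat.prime_two⟩
  have hT2 : IsPGroup 2 ↥T := hT.1.1
  have hT1 : T ≠ ⊥ := hT.1.2.1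
  have hJT : thompsonSubgroupOf 2 T ≤ T := Cfsg.Agent.Helper55.ThJ.J_le T
  obtain ⟨hW2, hsplit⟩ := h46
  obtain ⟨L₀, hL₀max, hKL₀, huniq, -, hsyl₀⟩ :=
    Cfsg.Agent.S2950.result hL hN hZ hO S M hM hMJ T hT K hK
  have hLL₀ : L = L₀ := huniq L hLmax hKL
  subst hLL₀
  obtain ⟨L', hL'max, hXL', -, hov', -⟩ :=
    Cfsg.Agent.Helper55.Uq.exists_max hL hN hZ S M hMJ T hT K hK
  have hLL' : L' = L := huniq L' hL'max ((sup_le_sup_left hJT K).trans hXL')
  rw [hLL'] at hov'
  obtain ⟨hsyl, -, hCQ⟩ := hov'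
  have hTL : T ≤ L := hsyl.1
  refine ⟨?_, ?_⟩
  · intro hb
    rw [hb, Subgroup.card_bot] at hW2
    exact absurd hW2 (by norm_num)
  -- facts on `Z₀`
  have hZ0mem : ∀ y ∈ Z₀, y ∈ thompsonSubgroupOf 2 T ∧
      y ∈ Subgroup.centralizer (thompsonSubgroupOf 2 T : Set G) ∧ y ^ 2 = 1 := by
    intro y hy
    rw [hZ₀] at hy
    exact Cfsg.Agent.H63.Sn.mem_omegaCenterOf _ hy
  have hsq : ∀ y ∈ Z₀, y * y = 1 := fun y hy => by
    rw [← pow_two]; exact (hZ0mem y hy).2.2
  have hinv : ∀ y ∈ Z₀, y⁻¹ = y := fun y hy => inv_eq_of_mul_eq_one_left (hsq y hy)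
  have hcomm : ∀ a ∈ Z₀, ∀ b ∈ Z₀, a * b = b * a := by
    intro a ha b hb
    exact Subgroup.mem_centralizer_iff.mp (hZ0mem b hb).2.1 a (hZ0mem a ha).1
  have hNZ : ∀ g ∈ Subgroup.normalizer (T : Set G),
      Z₀.map (MulAut.conj g).toMonoidHom = Z₀ := by
    intro g hg
    have h1 : (thompsonSubgroupOf 2 T).map (MulAut.conj g).toMonoidHom =
        thompsonSubgroupOf 2 T :=
      Subgroup.mem_normalizer_iff_map_conj_eq.mp (Cfsg.Agent.Helper55.ThJ.normalizer_le T hg)
    rw [hZ₀, ← Cfsg.Agent.H59.So.omegaCenterOf_map_conj, h1]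
  have hNZmem : ∀ g ∈ Subgroup.normalizer (T : Set G), ∀ y ∈ Z₀, g * y * g⁻¹ ∈ Z₀ := by
    intro g hg y hy
    have h1 := cj_mem g hy
    rwa [hNZ g hg] at h1
  -- the element `x`
  obtain ⟨x, hxS, hxT, hxN⟩ := exists_normalizing S T hTS hne
  have hxL : x ∉ L := by
    intro hxL
    apply hxT
    have hP : IsPGroup 2 ↥((S : Subgroup G) ⊓ L) := S.isPGroup'.to_le inf_le_left
    exact sylowIn_max hsyl hP (le_inf hTS hTL) inf_le_right (Subgroup.mem_inf.mpr ⟨hxS, hxL⟩)
  -- `N_G(L) ≤ L`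
  have hQ1 : pCoreOf 2 L ≠ ⊥ := by
    intro hb
    apply hT1
    rw [eq_bot_iff]
    intro t _
    have h1 : t ∈ Subgroup.centralizer (pCoreOf 2 L : Set G) := by
      rw [hb, Subgroup.mem_centralizer_iff]
      intro h hh
      have h2 : h = 1 := Subgroup.mem_bot.mp hh
      rw [h2, one_mul, mul_one]
    have h3 := hCQ h1
    rwa [hb] at h3
  have hNQ : Subgroup.normalizer (pCoreOf 2 L : Set G) = L :=
    hLmax.2 _ ⟨pCoreOf 2 L, Cfsg.Agent.Helper55.Uq.pCoreOf_isPGroup L, hQ1, rfl⟩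
      (Cfsg.Agent.Helper55.Uq.le_normalizer_pCoreOf' L)
  have hNL : ∀ g : G, L.map (MulAut.conj g).toMonoidHom = L → g ∈ L := by
    intro g hg
    have h1 := Cfsg.Agent.H51.pCoreOf_map 2 L (MulAut.conj g)
    rw [hg] at h1
    have h2 : g ∈ Subgroup.normalizer (pCoreOf 2 L : Set G) :=
      Subgroup.mem_normalizer_iff_map_conj_eq.mpr h1.symm
    rwa [hNQ] at h2
  -- centralizers of involutions of `Z₀` centralized by `⟨K, J(T)⟩` lie in `L`
  have hU : ∀ y ∈ Z₀, y ≠ 1 →
      K ⊔ thompsonSubgroupOf 2 T ≤ Subgroup.centralizer ({y} : Set G) →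
      Subgroup.centralizer ({y} : Set G) ≤ L := by
    intro y hy hy1 hKJy
    have hP : IsPGroup 2 ↥(Subgroup.zpowers y) :=
      Cfsg.Agent.H80.isPGroup_zpowers_of_orderOf 2 y (orderOf_eq_prime (hZ0mem y hy).2.2 hy1)
    have hP1 : Subgroup.zpowers y ≠ ⊥ := by
      intro h
      exact hy1 (Subgroup.zpowers_eq_bot.mp h)
    obtain ⟨L₂, hL₂max, hL₂⟩ := Cfsg.Agent.Helper55.Uq.exists_maximalTwoLocal
      (⟨Subgroup.zpowers y, hP, hP1, rfl⟩ :
        IsTwoLocal (Subgroup.normalizer (Subgroup.zpowers y : Set G)))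
    have hCN : Subgroup.centralizer ({y} : Set G) ≤
        Subgroup.normalizer (Subgroup.zpowers y : Set G) := by
      refine le_trans ?_ (Subgroup.centralizer_le_normalizer _)
      intro g hg
      have hgy : y * g = g * y := Subgroup.mem_centralizer_iff.mp hg y (Set.mem_singleton y)
      rw [Subgroup.mem_centralizer_iff]
      intro h hh
      obtain ⟨k, rfl⟩ := Subgroup.mem_zpowers_iff.mp hh
      exact (Commute.zpow_left (show Commute y g from hgy) k).eq
    have h3 : L₂ = L := huniq L₂ hL₂max ((hKJy.trans hCN).trans hL₂)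
    rw [← h3]
    exact hCN.trans hL₂
  -- `Z₁`
  obtain ⟨Z₁, hZ₁, hsplit'⟩ : ∃ Z₁ : Subgroup G,
      Z₁ = Z₀ ⊓ ((K ⊔ thompsonSubgroupOf 2 T) ⊓
        Subgroup.centralizer ((K ⊔ thompsonSubgroupOf 2 T) : Set G)) ∧
      Z₁ ⊔ (Z₀ ⊓ wOf K) = Z₀ := ⟨_, rfl, hsplit⟩
  have hZ₁Z₀ : Z₁ ≤ Z₀ := by rw [hZ₁]; exact inf_le_left
  have hZ₁cent : ∀ y ∈ Z₁,
      K ⊔ thompsonSubgroupOf 2 T ≤ Subgroup.centralizer ({y} : Set G) := by
    intro y hy
    rw [hZ₁] at hy
    have h1 := (Subgroup.mem_inf.mp (Subgroup.mem_inf.mp hy).2).2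
    have h2 : ∀ k : G, (k ∈ K ∨ k ∈ thompsonSubgroupOf 2 T) →
        k ∈ Subgroup.centralizer ({y} : Set G) := by
      intro k hk
      rw [Subgroup.mem_centralizer_iff]
      intro h hh
      rw [Set.mem_singleton_iff] at hh
      rw [hh]
      exact (Subgroup.mem_centralizer_iff.mp h1 k hk).symm
    exact sup_le (fun k hk => h2 k (Or.inl hk)) (fun k hk => h2 k (Or.inr hk))
  have hdisj : ∀ y ∈ Z₁, x * y * x⁻¹ ∈ Z₁ → y = 1 := by
    intro y hy hy'
    by_contra hy1
    have hy'1 : x * y * x⁻¹ ≠ 1 := by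
      intro h
      apply hy1
      have e : y = x⁻¹ * (x * y * x⁻¹) * x := by group
      rw [e, h]; group
    have hC2 := hU _ (hZ₁Z₀ hy') hy'1 (hZ₁cent _ hy')
    have h4 : K ⊔ thompsonSubgroupOf 2 T ≤ L.map (MulAut.conj x⁻¹).toMonoidHom := by
      intro k hk
      rw [mem_cj, inv_inv]
      apply hC2
      have hky : y * k = k * y :=
        Subgroup.mem_centralizer_iff.mp (hZ₁cent y hy hk) y (Set.mem_singleton y)
      rw [Subgroup.mem_centralizer_iff]
      intro h hh
      rw [Set.mem_singleton_iff] at hh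
      rw [hh]
      calc x * y * x⁻¹ * (x * k * x⁻¹) = x * (y * k) * x⁻¹ := by group
        _ = x * (k * y) * x⁻¹ := by rw [hky]
        _ = x * k * x⁻¹ * (x * y * x⁻¹) := by group
    have h5 : L.map (MulAut.conj x⁻¹).toMonoidHom = L :=
      huniq _ (maxTwoLocal_cj hLmax x⁻¹) h4
    have h6 := hNL x⁻¹ h5
    exact hxL (by simpa using L.inv_mem h6)
  -- the generator `w` of `Z₀ ⊓ W_K`
  obtain ⟨w, hwW, hw1, hWall⟩ := card_two_elts hW2
  have hwZ₀ : w ∈ Z₀ := (Subgroup.mem_inf.mp hwW).1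
  have hww : w * w = 1 := hsq w hwZ₀
  have hwi : w⁻¹ = w := hinv w hwZ₀
  have hdesc : ∀ y ∈ Z₀, y ∈ Z₁ ∨ y * w ∈ Z₁ := by
    intro y hy
    rw [← hsplit'] at hy
    exact sup_two_desc hZ₁Z₀ hwZ₀ hcomm hww hWall y hy
  -- `Z ≤ Z₀`
  have hZle : Z ≤ Z₀ := by
    intro z hz
    rw [hZdef] at hz
    obtain ⟨hzS, hzC, hz2⟩ := Cfsg.Agent.H63.Sn.mem_omegaCenterOf _ hz
    have hzCT : z ∈ Subgroup.centralizer (T : Set G) :=
      Subgroup.centralizer_le (SetLike.coe_subset_coe.mpr hTS) hzC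
    have hQT : pCoreOf 2 L ≤ T := Cfsg.Agent.Helper55.J48.pCoreOf_le_of_sylowIn hsyl
    have hzT : z ∈ T :=
      hQT (hCQ (Subgroup.centralizer_le (SetLike.coe_subset_coe.mpr hQT) hzCT))
    have h1 : z ∈ omegaCenterOf T := Cfsg.Agent.H63.Sn.omegaCenterOf_mem T hzT hzCT hz2
    rw [hZ₀]
    exact omegaCenter_le_J T h1
  have hS1 : (S : Subgroup G) ≠ ⊥ := by
    intro h
    apply hT1
    rw [eq_bot_iff, ← h]
    exact hTS
  obtain ⟨z, hzZ', hz1⟩ := omegaCenter_ne_bot S.isPGroup' hS1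
  have hzZ : z ∈ Z := by rw [hZdef]; exact hzZ'
  have hZcent : ∀ z ∈ Z, ∀ s ∈ (S : Subgroup G), s * z = z * s := by
    intro z hz s hs
    rw [hZdef] at hz
    exact Subgroup.mem_centralizer_iff.mp (Cfsg.Agent.H63.Sn.mem_omegaCenterOf _ hz).2.1 s hs
  by_cases hZ₁bot : Z₁ = ⊥
  · -- `Z₁ = 1`: `Z = Z₀` of order 2
    left
    have hZ0W : Z₀ ⊓ wOf K = Z₀ := by
      rw [hZ₁bot, bot_sup_eq] at hsplit'
      exact hsplit'
    have hcard : Nat.card ↥Z₀ = 2 := by
      rw [← hZ0W]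
      exact hW2
    refine ⟨le_antisymm hZle ?_, hcard⟩
    have hzw : z = w := by
      rcases hdesc z (hZle hzZ) with h | h
      · rw [hZ₁bot, Subgroup.mem_bot] at h
        exact absurd h hz1
      · rw [hZ₁bot, Subgroup.mem_bot] at h
        have h' : z = w⁻¹ := eq_inv_of_mul_eq_one_left h
        rw [h', hwi]
    intro y hy
    rcases hdesc y hy with h | h
    · rw [hZ₁bot, Subgroup.mem_bot] at h
      rw [h]
      exact one_mem _
    · rw [hZ₁bot, Subgroup.mem_bot] at h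
      have h' : y = w⁻¹ := eq_inv_of_mul_eq_one_left h
      rw [h', hwi, ← hzw]
      exact hzZ
  · -- `Z₁ ≠ 1`
    right; right
    obtain ⟨z₁, hz₁, hz₁1⟩ : ∃ z₁ ∈ Z₁, z₁ ≠ 1 := by
      by_contra hcon
      push_neg at hcon
      apply hZ₁bot
      rw [eq_bot_iff]
      intro y hy
      exact Subgroup.mem_bot.mpr (hcon y hy)
    have hz₁Z₀ : z₁ ∈ Z₀ := hZ₁Z₀ hz₁
    have hz₁sq : z₁ * z₁ = 1 := hsq z₁ hz₁Z₀
    obtain ⟨b, hb⟩ : ∃ b, b = x * z₁ * x⁻¹ := ⟨_, rfl⟩
    have hbZ₀ : b ∈ Z₀ := by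
      rw [hb]
      exact hNZmem x hxN z₁ hz₁Z₀
    have hbZ₁ : b ∉ Z₁ := by
      intro h
      rw [hb] at h
      exact hz₁1 (hdisj z₁ hz₁ h)
    have hb1 : b ≠ 1 := fun h => hbZ₁ (by rw [h]; exact one_mem _)
    have hz₁b : z₁ ≠ b := fun h => hbZ₁ (by rw [← h]; exact hz₁)
    have hbw : b * w ∈ Z₁ := (hdesc b hbZ₀).resolve_left hbZ₁
    have hZ₁all : ∀ y ∈ Z₁, y = 1 ∨ y = z₁ := by
      intro y hy
      by_cases hy1 : y = 1
      · exact Or.inl hy1
      · right
        have hyb : x * y * x⁻¹ ∉ Z₁ := fun h => hy1 (hdisj y hy h)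
        have hyZ₀ : x * y * x⁻¹ ∈ Z₀ := hNZmem x hxN y (hZ₁Z₀ hy)
        have h2 : x * y * x⁻¹ * w ∈ Z₁ := (hdesc _ hyZ₀).resolve_left hyb
        have h3 : x * (z₁ * y⁻¹) * x⁻¹ ∈ Z₁ := by
          have e : x * (z₁ * y⁻¹) * x⁻¹ = b * w * (x * y * x⁻¹ * w)⁻¹ := by
            rw [hb]; group
          rw [e]
          exact mul_mem hbw (inv_mem h2)
        have h4 := hdisj _ (mul_mem hz₁ (inv_mem hy)) h3
        have h5 : z₁ = y⁻¹⁻¹ := eq_inv_of_mul_eq_one_left h4
        rw [inv_inv] at h5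
        exact h5.symm
    have hall : ∀ y ∈ Z₀, y = 1 ∨ y = z₁ ∨ y = b ∨ y = z₁ * b := by
      have hbw' : b = w ∨ b = z₁ * w := by
        rcases hZ₁all _ hbw with h | h
        · left
          have h' : b = w⁻¹ := eq_inv_of_mul_eq_one_left h
          rwa [hwi] at h'
        · right
          have h' : b = z₁ * w⁻¹ := eq_mul_inv_of_mul_eq h
          rwa [hwi] at h'
      intro y hy
      rcases hdesc y hy with h | h
      · rcases hZ₁all y h with h' | h'
        · exact Or.inl h'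
        · exact Or.inr (Or.inl h')
      · have hyw : y = w ∨ y = z₁ * w := by
          rcases hZ₁all _ h with h' | h'
          · left
            have h'' : y = w⁻¹ := eq_inv_of_mul_eq_one_left h'
            rwa [hwi] at h''
          · right
            have h'' : y = z₁ * w⁻¹ := eq_mul_inv_of_mul_eq h'
            rwa [hwi] at h''
        rcases hbw' with hb' | hb'
        · rcases hyw with h' | h'
          · right; right; left
            rw [h', hb']
          · right; right; right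
            rw [h', hb']
        · have hwb : w = z₁ * b := by
            rw [hb', ← mul_assoc, hz₁sq, one_mul]
          rcases hyw with h' | h'
          · right; right; right
            rw [h']
            exact hwb
          · right; right; left
            rw [h', hb']
    have hcard4 : Nat.card ↥Z₀ = 4 :=
      card_four Z₀ z₁ b hz₁Z₀ hbZ₀ hz₁1 hb1 hz₁b hz₁sq hall
    -- the nonidentity elements of `Z` are `z₁ * b`
    have hZgen : ∀ z' ∈ Z, z' ≠ 1 → z' = z₁ * b := by
      intro z' hz' hz'1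
      have hzfix : x * z' * x⁻¹ = z' := by
        have h1 := hZcent z' hz' x hxS
        rw [h1]; group
      rcases hall z' (hZle hz') with h | h | h | h
      · exact absurd h hz'1
      · exfalso
        rw [h] at hzfix
        exact hz₁b (hb.trans hzfix).symm
      · exfalso
        rw [h] at hzfix
        have h2 : x * b * x⁻¹ = x * z₁ * x⁻¹ := by rw [hzfix, hb]
        exact hz₁b (mul_left_cancel (mul_right_cancel h2)).symm
      · exact h
    obtain ⟨e, he⟩ : ∃ e, e = z₁ * b := ⟨_, rfl⟩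
    have hze : z = e := by rw [he]; exact hZgen z hzZ hz1
    have heZ : e ∈ Z := by rw [← hze]; exact hzZ
    have heZ₀ : e ∈ Z₀ := hZle heZ
    have he1 : e ≠ 1 := by rw [← hze]; exact hz1
    have hee : e * e = 1 := hsq e heZ₀
    have hbe : b = z₁ * e := by rw [he, ← mul_assoc, hz₁sq, one_mul]
    have hez₁ : e ≠ z₁ := by
      intro h
      apply hb1
      have h' : z₁ * b = z₁ * 1 := by rw [← he, h, mul_one]
      exact mul_left_cancel h'
    have hall' : ∀ y ∈ Z₀, y = 1 ∨ y = z₁ ∨ y = b ∨ y = e := by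
      intro y hy
      rw [he]
      exact hall y hy
    have hxe : x * e * x⁻¹ = e := by
      have h1 := hZcent e heZ x hxS
      rw [h1]; group
    have hTe : ∀ t ∈ T, t * e * t⁻¹ = e := by
      intro t ht
      have h1 := hZcent e heZ t (hTS ht)
      rw [h1]; group
    have hUz₁ : Subgroup.centralizer ({z₁} : Set G) ≤ L :=
      hU z₁ hz₁Z₀ hz₁1 (hZ₁cent z₁ hz₁)
    -- `T` centralizes `z₁`
    have hTz₁ : ∀ t ∈ T, t * z₁ * t⁻¹ = z₁ := by
      intro t ht
      have htN : t ∈ Subgroup.normalizer (T : Set G) := Subgroup.le_normalizer ht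
      have h1 := hNZmem t htN z₁ hz₁Z₀
      have hne1 : t * z₁ * t⁻¹ ≠ 1 := by
        intro h
        apply hz₁1
        have e' : z₁ = t⁻¹ * (t * z₁ * t⁻¹) * t := by group
        rw [e', h]; group
      rcases hall' _ h1 with h | h | h | h
      · exact absurd h hne1
      · exact h
      · exfalso
        have h2 : x⁻¹ * t ∈ Subgroup.centralizer ({z₁} : Set G) := by
          rw [Subgroup.mem_centralizer_iff]
          intro y hy
          rw [Set.mem_singleton_iff] at hy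
          rw [hy]
          have h3 : t * z₁ * t⁻¹ = x * z₁ * x⁻¹ := by rw [h, hb]
          calc z₁ * (x⁻¹ * t) = x⁻¹ * (x * z₁ * x⁻¹) * t := by group
            _ = x⁻¹ * (t * z₁ * t⁻¹) * t := by rw [h3]
            _ = x⁻¹ * t * z₁ := by group
        have h4 := hUz₁ h2
        apply hxL
        have h5 : x⁻¹ ∈ L := by
          have h6 := L.mul_mem h4 (L.inv_mem (hTL ht))
          have e' : x⁻¹ * t * t⁻¹ = x⁻¹ := by group
          rwa [e'] at h6
        simpa using L.inv_mem h5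
      · exfalso
        have h3 : t * z₁ * t⁻¹ = t * e * t⁻¹ := by rw [h, hTe t ht]
        exact hez₁ (mul_left_cancel (mul_right_cancel h3)).symm
    have hcomm_of : ∀ g : G, g * z₁ * g⁻¹ = z₁ → g * e * g⁻¹ = e →
        ∀ y ∈ Z₀, y * g = g * y := by
      intro g h1 h2 y hy
      have c1 : z₁ * g = g * z₁ := (mul_inv_eq_iff_eq_mul.mp h1).symm
      have c2 : e * g = g * e := (mul_inv_eq_iff_eq_mul.mp h2).symm
      rcases hall' y hy with h | h | h | h
      · rw [h, one_mul, mul_one]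
      · rw [h]; exact c1
      · rw [h, hbe]
        calc z₁ * e * g = z₁ * (e * g) := mul_assoc _ _ _
          _ = z₁ * (g * e) := by rw [c2]
          _ = z₁ * g * e := (mul_assoc _ _ _).symm
          _ = g * z₁ * e := by rw [c1]
          _ = g * (z₁ * e) := mul_assoc _ _ _
      · rw [h]; exact c2
    have hOm : omegaCenterOf T = Z₀ := by
      apply le_antisymm
      · rw [hZ₀]
        exact omegaCenter_le_J T
      · intro y hy
        refine Cfsg.Agent.H63.Sn.omegaCenterOf_mem T (hJT (hZ0mem y hy).1) ?_ (hZ0mem y hy).2.2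
        rw [Subgroup.mem_centralizer_iff]
        intro t ht
        exact (hcomm_of t (hTz₁ t ht) (hTe t ht) y hy).symm
    refine ⟨hOm, hcard4, ?_⟩
    have hCL : Subgroup.centralizer (Z₀ : Set G) ≤ L := by
      refine le_trans (Subgroup.centralizer_le ?_) hUz₁
      intro y hy
      rw [Set.mem_singleton_iff] at hy
      rw [hy]
      exact hz₁Z₀
    have hinfeq : L ⊓ Subgroup.centralizer (Z₀ : Set G) = Subgroup.centralizer (Z₀ : Set G) :=
      inf_eq_right.mpr hCL
    rw [hinfeq, Subgroup.relIndex_eq_two_iff]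
    -- no conjugate of `e` is `z₁`
    have hE0 : ∀ g : G, g * e * g⁻¹ = z₁ → False := by
      intro g hg
      have hCe : Subgroup.centralizer ({e} : Set G) ≤
          Subgroup.normalizer ((S : Subgroup G) : Set G) := by
        refine le_trans ?_ (hZ S)
        intro c hc
        have hce : e * c = c * e := Subgroup.mem_centralizer_iff.mp hc e (Set.mem_singleton e)
        rw [Subgroup.mem_centralizer_iff]
        intro z' hz'
        have hz'Z : z' ∈ Z := by rw [hZdef]; exact hz'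
        by_cases h1 : z' = 1
        · rw [h1, one_mul, mul_one]
        · rw [hZgen z' hz'Z h1, ← he]
          exact hce
      have hegz : e = g⁻¹ * z₁ * g := by rw [← hg]; group
      have hKJN : ∀ k ∈ K ⊔ thompsonSubgroupOf 2 T,
          g⁻¹ * k * g ∈ Subgroup.normalizer ((S : Subgroup G) : Set G) := by
        intro k hk
        apply hCe
        have hkz : z₁ * k = k * z₁ :=
          Subgroup.mem_centralizer_iff.mp (hZ₁cent z₁ hz₁ hk) z₁ (Set.mem_singleton z₁)
        rw [Subgroup.mem_centralizer_iff]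
        intro y hy
        rw [Set.mem_singleton_iff] at hy
        rw [hy, hegz]
        calc g⁻¹ * z₁ * g * (g⁻¹ * k * g) = g⁻¹ * (z₁ * k) * g := by group
          _ = g⁻¹ * (k * z₁) * g := by rw [hkz]
          _ = g⁻¹ * k * g * (g⁻¹ * z₁ * g) := by group
      have hJS : ∀ j ∈ thompsonSubgroupOf 2 T, g⁻¹ * j * g ∈ (S : Subgroup G) := by
        have hle : (thompsonSubgroupOf 2 T).map (MulAut.conj g⁻¹).toMonoidHom ≤
            (S : Subgroup G) := by
          apply Cfsg.Agent.H80.le_sylow_of_le_normalizer S _ ((hT2.to_le hJT).map _)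
          intro y hy
          rw [mem_cj, inv_inv] at hy
          have h1 := hKJN _ (Subgroup.mem_sup_right hy)
          have e' : g⁻¹ * (g * y * g⁻¹) * g = y := by group
          rwa [e'] at h1
        intro j hj
        have h1 := hle (cj_mem g⁻¹ hj)
        rwa [inv_inv] at h1
      have hKle : K ≤ (S : Subgroup G).map (MulAut.conj g).toMonoidHom := by
        have hcomm' : ⁅K, thompsonSubgroupOf 2 T⁆ ≤
            (S : Subgroup G).map (MulAut.conj g).toMonoidHom := by
          rw [Subgroup.commutator_le]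
          intro k hk j hj
          rw [mem_cj]
          have hn := hKJN k (Subgroup.mem_sup_left hk)
          have hs := hJS j hj
          have h1 : (g⁻¹ * k * g) * (g⁻¹ * j * g) * (g⁻¹ * k * g)⁻¹ ∈ (S : Subgroup G) :=
            (Subgroup.mem_normalizer_iff.mp hn _).mp hs
          have e' : g⁻¹ * ⁅k, j⁆ * g =
              (g⁻¹ * k * g) * (g⁻¹ * j * g) * (g⁻¹ * k * g)⁻¹ * (g⁻¹ * j * g)⁻¹ := by
            rw [commutatorElement_def]; group
          rw [e']
          exact mul_mem h1 (inv_mem hs)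
        exact (le_of_eq hK.1.1.2.1.symm).trans hcomm'
      have hK2 : IsPGroup 2 ↥K := (S.isPGroup'.map _).to_le hKle
      obtain ⟨n, hn⟩ := IsPGroup.iff_card.mp hK2
      have h3 := Subgroup.relIndex_dvd_card (pCoreOf 2 K) K
      rw [hK.1.1.2.2.1, hn] at h3
      have h4 := Nat.Prime.dvd_of_dvd_pow Nat.prime_three h3
      exact absurd h4 (by norm_num)
    -- `N_G(Z₀)` fixes `e`
    have hE : ∀ g ∈ Subgroup.normalizer (Z₀ : Set G), g * e * g⁻¹ = e := by
      intro g hg
      have h1 : g * e * g⁻¹ ∈ Z₀ := (Subgroup.mem_normalizer_iff.mp hg e).mp heZ₀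
      rcases hall' _ h1 with h | h | h | h
      · exfalso
        apply he1
        have e' : e = g⁻¹ * (g * e * g⁻¹) * g := by group
        rw [e', h]; group
      · exact (hE0 g h).elim
      · exfalso
        apply hE0 (x⁻¹ * g)
        have e' : x⁻¹ * g * e * (x⁻¹ * g)⁻¹ = x⁻¹ * (g * e * g⁻¹) * x := by group
        rw [e', h, hb]; group
      · exact h
    have hxNZ : x ∈ Subgroup.normalizer (Z₀ : Set G) :=
      Subgroup.mem_normalizer_iff_map_conj_eq.mpr (hNZ x hxN)
    have hmemC : ∀ g : G, g * z₁ * g⁻¹ = z₁ → g * e * g⁻¹ = e →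
        g ∈ Subgroup.centralizer (Z₀ : Set G) := by
      intro g h1 h2
      rw [Subgroup.mem_centralizer_iff]
      intro y hy
      exact hcomm_of g h1 h2 y hy
    have hnotC : ∀ g : G, g * z₁ * g⁻¹ = b → g ∉ Subgroup.centralizer (Z₀ : Set G) := by
      intro g h1 hc
      have h2 := Subgroup.mem_centralizer_iff.mp hc z₁ hz₁Z₀
      apply hz₁b
      rw [← h1, ← h2]; group
    refine ⟨x, hxNZ, ?_⟩
    intro g hg
    have hge := hE g hg
    have h1 : g * z₁ * g⁻¹ ∈ Z₀ := (Subgroup.mem_normalizer_iff.mp hg z₁).mp hz₁Z₀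
    rcases hall' _ h1 with h | h | h | h
    · exfalso
      apply hz₁1
      have e' : z₁ = g⁻¹ * (g * z₁ * g⁻¹) * g := by group
      rw [e', h]; group
    · right
      refine ⟨hmemC g h hge, ?_⟩
      apply hnotC
      have e' : g * x * z₁ * (g * x)⁻¹ = g * (x * z₁ * x⁻¹) * g⁻¹ := by group
      have e'' : g * (z₁ * e) * g⁻¹ = (g * z₁ * g⁻¹) * (g * e * g⁻¹) := by group
      rw [e', ← hb, hbe, e'', h, hge]
    · left
      refine ⟨hmemC (g * x) ?_ ?_, hnotC g h⟩
      · have e' : g * x * z₁ * (g * x)⁻¹ = g * (x * z₁ * x⁻¹) * g⁻¹ := by group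
        have e'' : g * (z₁ * e) * g⁻¹ = (g * z₁ * g⁻¹) * (g * e * g⁻¹) := by group
        have e3 : g * b * g⁻¹ = b * e := by
          rw [hbe, e'', h, hge, ← hbe]
        rw [e', ← hb, e3, hbe, mul_assoc, hee, mul_one]
      · have e' : g * x * e * (g * x)⁻¹ = g * (x * e * x⁻¹) * g⁻¹ := by group
        rw [e', hxe, hge]
    · exfalso
      have h3 : g * z₁ * g⁻¹ = g * e * g⁻¹ := by rw [h, hge]
      exact hez₁ (mul_left_cancel (mul_right_cancel h3)).symm

end Cfsg.Agent.H87.Zc
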